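import Mathlib
import Cfsg.Agent.Lib.Symplectic.Basic

/-! The order of the symplectic group. -/
set_option autoImplicit false
open scoped Matrix

namespace CfsgLib.Symplectic.Order
open CfsgLib.Symplectic.Basic

variable {F : Type*} [Field F] [Fintype F] {m : ℕ}

theorem card_orth_std (j : ℕ) (_hj : j ≤ m) :
    Nat.card (orth (std j : Set (V m F))) = Fintype.card F ^ (2 * (m - j)) := by
  let I := {i : Fin m // j ≤ (i : ℕ)}
  let e : orth (std j : Set (V m F)) ≃ (I ⊕ I → F) :=
    { toFun := fun x k => Sum.elim (fun i : I => x.1 (Sum.inl i.1)) (fun i : I => x.1 (Sum.inr i.1)) k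
      invFun := fun f => ⟨fun k => Sum.elim
          (fun i : Fin m => if h : j ≤ (i : ℕ) then f (Sum.inl ⟨i, h⟩) else 0)
          (fun i : Fin m => if h : j ≤ (i : ℕ) then f (Sum.inr ⟨i, h⟩) else 0) k, by
        rw [mem_orth_std]
        intro i hi
        simp [Nat.not_le.2 hi]⟩
      left_inv := fun x => by
        refine Subtype.ext (funext fun k => ?_)
        rcases k with i | i <;> simp only [Sum.elim_inl, Sum.elim_inr]
        · split_ifs with h
          · rfl
          · exact ((mem_orth_std.1 x.2 i (Nat.not_le.1 h)).1).symm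
        · split_ifs with h
          · rfl
          · exact ((mem_orth_std.1 x.2 i (Nat.not_le.1 h)).2).symm
      right_inv := fun f => funext fun k => by
        rcases k with ⟨i, hi⟩ | ⟨i, hi⟩ <;> simp [hi] }
  have hI : Nat.card I = m - j := by
    have e2 : Fin (m - j) ≃ I :=
      { toFun := fun i => ⟨⟨j + i, by have := i.isLt; omega⟩, by simp⟩
        invFun := fun i => ⟨(i.1 : ℕ) - j, by have := i.1.isLt; have := i.2; omega⟩
        left_inv := fun i => Fin.ext (by simp)
        right_inv := fun i => Subtype.ext (Fin.ext (by have := i.2; simp; omega)) }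
    rw [← Nat.card_congr e2, Nat.card_fin]
  rw [Nat.card_congr e, Nat.card_fun, Nat.card_sum, hI, Nat.card_eq_fintype_card, two_mul]

/-- pairs with form value one in the orthogonal of the first `j` standard pairs -/
abbrev Pairs (m : ℕ) (F : Type*) [Field F] (j : ℕ) :=
  {p : V m F × V m F // p.1 ∈ orth (std j) ∧ p.2 ∈ orth (std j) ∧ B p.1 p.2 = 1}

theorem card_pairs (j : ℕ) (hj : j < m) :
    Nat.card (Pairs m F j) * Fintype.card F =
      (Fintype.card F ^ (2 * (m - j)) - 1) * Fintype.card F ^ (2 * (m - j)) := by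
  classical
  set W := orth (std j : Set (V m F)) with hW
  let U := {u : W // u ≠ 0}
  let e : Pairs m F j ≃ Σ u : U, {v : W // B (u.1 : V m F) v = 1} :=
    { toFun := fun p => ⟨⟨⟨p.1.1, p.2.1⟩, fun h => by
          have h0 : p.1.1 = 0 := congrArg Subtype.val h
          have := p.2.2.2
          rw [h0] at this
          simp at this⟩, ⟨⟨p.1.2, p.2.2.1⟩, p.2.2.2⟩⟩
      invFun := fun s => ⟨(s.1.1.1, s.2.1.1), s.1.1.2, s.2.1.2, s.2.2⟩
      left_inv := fun p => rfl
      right_inv := fun s => rfl }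
  have hfib : ∀ u : U, Nat.card {v : W // B (u.1 : V m F) v = 1} * Fintype.card F = Fintype.card F ^ (2 * (m - j)) := by
    intro u
    let φ : W →ₗ[F] F := (B (u.1 : V m F)).comp W.subtype
    obtain ⟨z, hz, hz0⟩ := nondeg_std j (u.1 : V m F) u.1.2 (fun h => u.2 (Subtype.ext h))
    let v0 : W := (B (u.1 : V m F) z)⁻¹ • ⟨z, hz⟩
    have hv0 : φ v0 = 1 := by
      show B (u.1 : V m F) ((B (u.1 : V m F) z)⁻¹ • z) = 1
      rw [map_smul, smul_eq_mul, inv_mul_cancel₀ hz0]
    let e2 : {v : W // B (u.1 : V m F) v = 1} ≃ LinearMap.ker φ :=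
      { toFun := fun v => ⟨v.1 - v0, by rw [LinearMap.mem_ker, map_sub, hv0]; exact sub_eq_zero.2 v.2⟩
        invFun := fun v => ⟨v.1 + v0, by
          show φ (v.1 + v0) = 1
          rw [map_add, LinearMap.mem_ker.1 v.2, hv0, zero_add]⟩
        left_inv := fun v => Subtype.ext (sub_add_cancel _ _)
        right_inv := fun v => Subtype.ext (add_sub_cancel_right _ _) }
    have hsurj : LinearMap.range φ = ⊤ := LinearMap.range_eq_top.2 fun c => ⟨c • v0, by rw [map_smul, hv0, smul_eq_mul, mul_one]⟩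
    have h1 := Submodule.card_eq_card_quotient_mul_card (LinearMap.ker φ)
    rw [Nat.card_congr (φ.quotKerEquivRange).toEquiv, hsurj,
      Nat.card_congr (Submodule.topEquiv (R := F) (M := F)).toEquiv, card_orth_std j hj.le] at h1
    rw [Nat.card_congr e2, h1, Nat.card_eq_fintype_card (α := F), mul_comm]
  rw [Nat.card_congr e, Nat.card_sigma, Finset.sum_mul, Finset.sum_congr rfl fun u _ => hfib u, Finset.sum_const,
    Finset.card_univ, smul_eq_mul]
  congr 1
  rw [← card_orth_std j hj.le, ← Nat.card_eq_fintype_card]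
  have h2 : Fintype.card {u : W // ¬u = 0} = Fintype.card W - 1 := by
    rw [Fintype.card_subtype_compl, Fintype.card_subtype_eq]
  rw [Nat.card_eq_fintype_card, Nat.card_eq_fintype_card]
  exact h2

theorem card_fixer_succ (j : ℕ) (hj : j < m) :
    Nat.card (fixer (std j : Set (V m F))) = Nat.card (Pairs m F j) * Nat.card (fixer (std (j + 1) : Set (V m F))) := by
  obtain ⟨he, hf⟩ := single_mem_orth_std (F := F) (i := (⟨j, hj⟩ : Fin m)) le_rfl 1
  set e : V m F := Pi.single (Sum.inl ⟨j, hj⟩) 1 with he'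
  set f : V m F := Pi.single (Sum.inr ⟨j, hj⟩) 1 with hf'
  have hfe : B f e = 1 := B_std_pair _
  have hex : ∀ p : Pairs m F j, ∃ A ∈ fixer (std j : Set (V m F)), A.1 *ᵥ f = p.1.1 ∧ A.1 *ᵥ e = p.1.2 := fun p => by
    obtain ⟨A, hA, hA'⟩ := trans_pair (nondeg_std j) hf he p.2.1 p.2.2.1 hfe p.2.2.2
    exact ⟨A, TS_le_fixer _ hA, hA'⟩
  choose s hs hs1 hs2 using hex
  have hsub : ∀ A : Sp m F, A ∈ fixer (std (j + 1) : Set (V m F)) ↔
      A ∈ fixer (std j : Set (V m F)) ∧ A.1 *ᵥ f = f ∧ A.1 *ᵥ e = e := by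
    intro A
    constructor
    · intro h
      exact ⟨fun x hx => h x (by rw [std_succ hj]; exact Or.inl hx), h f (by rw [std_succ hj]; exact Or.inr (Or.inl rfl)),
        h e (by rw [std_succ hj]; exact Or.inr (Or.inr rfl))⟩
    · rintro ⟨h, h1, h2⟩ x hx
      rw [std_succ hj] at hx
      rcases hx with hx | rfl | rfl
      · exact h x hx
      · exact h1
      · exact h2
  rw [← Nat.card_prod]
  refine Nat.card_congr (Equiv.ofBijective (fun q : Pairs m F j × fixer (std (j + 1) : Set (V m F)) =>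
    (⟨s q.1 * q.2.1, mul_mem (hs q.1) ((hsub _).1 q.2.2).1⟩ : fixer (std j : Set (V m F)))) ⟨?_, ?_⟩).symm
  · rintro ⟨p, h⟩ ⟨p', h'⟩ hq
    have hq' : s p * h.1 = s p' * h'.1 := congrArg Subtype.val hq
    obtain rfl : p = p' := by
      have h1 := congrArg (fun g : Sp m F => g.1 *ᵥ f) hq'
      have h2 := congrArg (fun g : Sp m F => g.1 *ᵥ e) hq'
      simp only [mulVec_mul, ((hsub _).1 h.2).2.1, ((hsub _).1 h'.2).2.1, hs1] at h1
      simp only [mulVec_mul, ((hsub _).1 h.2).2.2, ((hsub _).1 h'.2).2.2, hs2] at h2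
      exact Subtype.ext (Prod.ext h1 h2)
    exact Prod.ext rfl (Subtype.ext (mul_left_cancel hq'))
  · intro A
    let p : Pairs m F j := ⟨(A.1.1 *ᵥ f, A.1.1 *ᵥ e), mem_orth_of_fixer A.2 hf, mem_orth_of_fixer A.2 he,
      (B_map A.1 f e).trans hfe⟩
    refine ⟨(p, ⟨(s p)⁻¹ * A.1, (hsub _).2 ⟨mul_mem (inv_mem (hs p)) A.2, ?_, ?_⟩⟩), Subtype.ext (mul_inv_cancel_left _ _)⟩
    · rw [mulVec_mul]
      show (s p)⁻¹.1 *ᵥ p.1.1 = f
      rw [← hs1 p, mulVec_inv_cancel]
    · rw [mulVec_mul]
      show (s p)⁻¹.1 *ᵥ p.1.2 = e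
      rw [← hs2 p, mulVec_inv_cancel]

theorem card_fixer (j : ℕ) (hj : j ≤ m) : Nat.card (fixer (std j : Set (V m F))) =
    Fintype.card F ^ ((m - j) ^ 2) * ∏ i ∈ Finset.range (m - j), (Fintype.card F ^ (2 * (i + 1)) - 1) := by
  induction h : m - j generalizing j with
  | zero =>
    obtain rfl : j = m := by omega
    rw [fixer_top_eq_bot, Subgroup.card_bot]; simp
  | succ k ih =>
    have hjm : j < m := by omega
    rw [card_fixer_succ j hjm, ih (j + 1) (by omega) (by omega)]
    have hp := card_pairs (F := F) j hjm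
    rw [h] at hp
    refine Nat.eq_of_mul_eq_mul_right (Fintype.card_pos (α := F)) ?_
    rw [mul_right_comm, hp, Finset.prod_range_succ]
    ring

theorem card_Sp : Nat.card (Sp m F) =
    Fintype.card F ^ (m ^ 2) * ∏ i ∈ Finset.range m, (Fintype.card F ^ (2 * (i + 1)) - 1) := by
  have := card_fixer (F := F) (m := m) 0 (Nat.zero_le m)
  rw [std_zero, Nat.sub_zero] at this
  rw [← this, ← Subgroup.card_top (G := Sp m F)]
  congr 1
  exact congrArg (fun H : Subgroup (Sp m F) => ↥H) (eq_top_iff.2 fun A _ s hs => absurd hs (Set.notMem_empty s)).symm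

end CfsgLib.Symplectic.Order
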