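import Mathlib
import Cfsg.Agent.Lib.Symplectic.Basic
import Cfsg.Agent.Lib.Symplectic.Order
import Cfsg.Agent.Lib.Forms.WittAlt
import Cfsg.Agent.S0749

/-!
Counting totally isotropic tuples in the symplectic space and the subgroups moving them into prescribed places.
-/

set_option autoImplicit false
open scoped Matrix

namespace CfsgLib.Symplectic.IsoTuples

open CfsgLib.Symplectic.Basic

/-- Counting tuples built one coordinate at a time. -/
theorem card_tuples {α : Type*} [Finite α] (P : ∀ k : ℕ, (Fin k → α) → Prop)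
    (S : ∀ k : ℕ, (Fin k → α) → α → Prop) (c : ℕ → ℕ) (h0 : ∀ v, P 0 v) :
    ∀ k : ℕ, (∀ j, j < k → ∀ v : Fin (j + 1) → α, P (j + 1) v ↔ P j (Fin.init v) ∧ S j (Fin.init v) (v (Fin.last j))) →
      (∀ j, j < k → ∀ v : Fin j → α, P j v → Nat.card {x // S j v x} = c j) →
      Nat.card {v : Fin k → α // P k v} = ∏ i ∈ Finset.range k, c i := by
  intro k
  induction k with
  | zero =>
    intro _ _
    rw [Finset.prod_range_zero, Nat.card_eq_one_iff_unique]
    exact ⟨⟨fun a b => Subtype.ext (funext fun i => i.elim0)⟩, ⟨⟨fun i => i.elim0, h0 _⟩⟩⟩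
  | succ k ih =>
    intro hP hc
    haveI := Fintype.ofFinite α
    classical
    have e : {v : Fin (k + 1) → α // P (k + 1) v} ≃ Σ w : {w : Fin k → α // P k w}, {x // S k w.1 x} :=
      { toFun := fun v => ⟨⟨Fin.init v.1, ((hP k (Nat.lt_succ_self k) v.1).1 v.2).1⟩,
          ⟨v.1 (Fin.last k), ((hP k (Nat.lt_succ_self k) v.1).1 v.2).2⟩⟩
        invFun := fun p => ⟨Fin.snoc p.1.1 p.2.1, (hP k (Nat.lt_succ_self k) _).2
          (by rw [Fin.init_snoc, Fin.snoc_last]; exact ⟨p.1.2, p.2.2⟩)⟩
        left_inv := fun v => Subtype.ext (Fin.snoc_init_self v.1)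
        right_inv := fun p => by
          refine Sigma.subtype_ext (Subtype.ext (by simp [Fin.init_snoc])) ?_
          simp }
    rw [Nat.card_congr e, Nat.card_sigma, Finset.sum_congr rfl (fun w _ => hc k (Nat.lt_succ_self k) w.1 w.2),
      Finset.sum_const, Finset.card_univ, smul_eq_mul, ← Nat.card_eq_fintype_card, Finset.prod_range_succ,
      ih (fun j hj => hP j (Nat.lt_succ_of_lt hj)) (fun j hj => hc j (Nat.lt_succ_of_lt hj))]

variable {F : Type*} [Field F] {m : ℕ}

theorem B_nondeg : (B (F := F) (m := m)).Nondegenerate := by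
  constructor
  · intro x hx; exact eq_zero_of_B_left hx
  · intro y hy; exact eq_zero_of_B_left fun v => by rw [B_swap, hy, neg_zero]

variable (F m) in
/-- Independent totally isotropic tuples. -/
def IsIso (k : ℕ) (v : Fin k → V m F) : Prop :=
  LinearIndependent F v ∧ ∀ i j, B (v i) (v j) = 0

/-- Transitivity on such tuples. -/
theorem exists_map {k : ℕ} {v w : Fin k → V m F} (hv : IsIso F m k v) (hw : IsIso F m k w) :
    ∃ A : Sp m F, ∀ i, A.1 *ᵥ v i = w i := by
  classical
  let φ : Submodule.span F (Set.range v) ≃ₗ[F] Submodule.span F (Set.range w) :=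
    (Module.Basis.span hv.1).equiv (Module.Basis.span hw.1) (Equiv.refl _)
  have hzero : ∀ {u : Fin k → V m F}, (∀ i j, B (u i) (u j) = 0) → ∀ x ∈ Submodule.span F (Set.range u),
      ∀ y ∈ Submodule.span F (Set.range u), B x y = 0 := by
    intro u hu x hx y hy
    induction hx using Submodule.span_induction with
    | mem x hx =>
      obtain ⟨i, rfl⟩ := hx
      induction hy using Submodule.span_induction with
      | mem y hy => obtain ⟨j, rfl⟩ := hy; exact hu i j
      | zero => exact map_zero _
      | add a b _ _ ha hb => rw [map_add, ha, hb, add_zero]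
      | smul c a _ ha => rw [map_smul, ha, smul_zero]
    | zero => rw [map_zero, LinearMap.zero_apply]
    | add a b _ _ ha hb => rw [map_add, LinearMap.add_apply, ha, hb, add_zero]
    | smul c a _ ha => rw [map_smul, LinearMap.smul_apply, ha, smul_zero]
  obtain ⟨g, hg, hgx⟩ := Cfsg.Agent.S0749.result (B (F := F) (m := m)) B_nondeg (fun x => B_self x) _ _ φ
    (fun x x' => by rw [hzero hw.2 _ (φ x).2 _ (φ x').2, hzero hv.2 _ x.2 _ x'.2])
  refine ⟨⟨LinearMap.toMatrix' g.toLinearMap, (mem_iff _).2 fun u u' => ?_⟩, fun i => ?_⟩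
  · rw [LinearMap.toMatrix'_mulVec, LinearMap.toMatrix'_mulVec]
    exact hg u u'
  · change LinearMap.toMatrix' g.toLinearMap *ᵥ v i = w i
    rw [LinearMap.toMatrix'_mulVec]
    have h := hgx (Module.Basis.span hv.1 i)
    have hb : φ (Module.Basis.span hv.1 i) = Module.Basis.span hw.1 i := by
      simp only [φ, Module.Basis.equiv_apply, Equiv.refl_apply]
    rw [hb, Module.Basis.span_apply hv.1, Module.Basis.span_apply hw.1] at h
    exact h

theorem isIso_map (A : Sp m F) {k : ℕ} {v : Fin k → V m F} (hv : IsIso F m k v) :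
    IsIso F m k (fun i => A.1 *ᵥ v i) := by
  refine ⟨hv.1.map' A.1.mulVecLin ?_, fun i j => by rw [B_map]; exact hv.2 i j⟩
  rw [LinearMap.ker_eq_bot]
  intro x y h
  simp only [Matrix.mulVecLin_apply] at h
  rw [← mulVec_inv_cancel A x, h, mulVec_inv_cancel]

variable [Fintype F]

/-- Subgroup defined by where a fixed tuple may go. -/
theorem card_eq_mul {k : ℕ} {v : Fin k → V m F} (hv : IsIso F m k v) (H : Subgroup (Sp m F))
    (P : (Fin k → V m F) → Prop) (hH : ∀ A : Sp m F, A ∈ H ↔ P (fun i => A.1 *ᵥ v i))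
    (hP : ∀ w, P w → IsIso F m k w) :
    Nat.card H = Nat.card {w // P w} * Nat.card (fixer (Set.range v) : Subgroup (Sp m F)) := by
  classical
  choose s hs using fun w : {w // P w} => exists_map hv (hP w.1 w.2)
  have hsH : ∀ (w : {w // P w}) (h : fixer (Set.range v)), s w * h.1 ∈ H := by
    intro w h
    rw [hH]
    have : (fun i => (s w * h.1).1 *ᵥ v i) = w.1 := funext fun i => by
      rw [mulVec_mul, h.2 _ ⟨i, rfl⟩, hs w i]
    rw [this]
    exact w.2
  rw [← Nat.card_prod]
  refine Nat.card_congr (Equiv.ofBijective (fun p : {w // P w} × fixer (Set.range v) =>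
    (⟨s p.1 * p.2.1, hsH p.1 p.2⟩ : H)) ⟨?_, ?_⟩).symm
  · rintro ⟨w, h⟩ ⟨w', h'⟩ e
    have e' : s w * h.1 = s w' * h'.1 := congrArg Subtype.val e
    obtain rfl : w = w' := Subtype.ext (funext fun i => by
      have := congrArg (fun g : Sp m F => g.1 *ᵥ v i) e'
      simp only [mulVec_mul, h.2 _ ⟨i, rfl⟩, h'.2 _ ⟨i, rfl⟩, hs] at this
      exact this)
    exact Prod.ext rfl (Subtype.ext (mul_left_cancel e'))
  · intro A
    let w : {w // P w} := ⟨fun i => A.1.1 *ᵥ v i, (hH A.1).1 A.2⟩
    refine ⟨(w, ⟨(s w)⁻¹ * A.1, ?_⟩), Subtype.ext (mul_inv_cancel_left _ _)⟩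
    rintro x ⟨i, rfl⟩
    have hwi : A.1.1 *ᵥ v i = (s w).1 *ᵥ v i := (hs w i).symm
    rw [mulVec_mul, hwi, mulVec_inv_cancel]

/-- Dimension of a perp. -/
theorem finrank_orth {k : ℕ} {v : Fin k → V m F} (hv : LinearIndependent F v) :
    Module.finrank F (orth (Set.range v)) = 2 * m - k := by
  classical
  let φ : V m F →ₗ[F] (Fin k → F) := LinearMap.pi fun i => B (v i)
  have hker : LinearMap.ker φ = orth (Set.range v) := by
    ext x
    rw [LinearMap.mem_ker, mem_orth]
    constructor
    · rintro h z ⟨i, rfl⟩; exact congrFun h i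
    · intro h; funext i; exact h _ ⟨i, rfl⟩
  have hsurj : LinearMap.range φ = ⊤ := by
    rw [LinearMap.range_eq_top]
    intro c
    obtain ⟨ψ, hψ⟩ : ∃ ψ : Module.Dual F (V m F), ∀ i, ψ (v i) = c i := by
      let L := Fintype.linearCombination F v
      have hker' : LinearMap.ker L = ⊥ := by
        rw [LinearMap.ker_eq_bot]
        intro p p' h
        have h' : ∑ i, (p - p') i • v i = 0 := by
          have : L (p - p') = 0 := by rw [map_sub, h, sub_self]
          simpa [L, Fintype.linearCombination_apply] using this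
        funext i
        exact sub_eq_zero.1 (Fintype.linearIndependent_iff.1 hv (p - p') h' i)
      obtain ⟨g, hg⟩ := L.exists_leftInverse_of_injective hker'
      refine ⟨(Fintype.linearCombination F c).comp g, fun i => ?_⟩
      have hi : L (Pi.single i 1) = v i := by simp [L, Fintype.linearCombination_apply_single]
      rw [← hi, LinearMap.comp_apply, show g (L (Pi.single i 1)) = Pi.single i 1 from LinearMap.congr_fun hg _]
      simp [Fintype.linearCombination_apply_single]
    obtain ⟨x, hx⟩ := CfsgLib.Forms.WittAlt.exists_vec (B (F := F) (m := m)) B_nondeg ψ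
    exact ⟨x, funext fun i => (hx (v i)).trans (hψ i)⟩
  have h := φ.finrank_range_add_finrank_ker
  rw [hsurj, finrank_top, hker, Module.finrank_fintype_fun_eq_card, Module.finrank_fintype_fun_eq_card,
    Fintype.card_fin, Fintype.card_sum, Fintype.card_fin] at h
  omega

variable (F m) in
/-- The number of independent totally isotropic `k`-tuples. -/
theorem card_isIso (k : ℕ) : Nat.card {v : Fin k → V m F // IsIso F m k v}
    = ∏ i ∈ Finset.range k, (Fintype.card F ^ (2 * m - i) - Fintype.card F ^ i) := by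
  classical
  refine card_tuples (fun k v => IsIso F m k v)
    (fun k v x => x ∈ orth (Set.range v) ∧ x ∉ Submodule.span F (Set.range v)) _ ?_ k ?_ ?_
  · exact fun v => ⟨linearIndependent_empty_type, fun i => i.elim0⟩
  · intro j _ v
    have hsn : v = Fin.snoc (Fin.init v) (v (Fin.last j)) := (Fin.snoc_init_self v).symm
    constructor
    · intro hv
      refine ⟨⟨hv.1.comp _ (Fin.castSucc_injective j), fun a b => hv.2 _ _⟩, ?_, ?_⟩
      · rintro x ⟨a, rfl⟩; exact hv.2 _ _
      · have h1 := hv.1
        rw [hsn, linearIndependent_fin_snoc] at h1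
        exact h1.2
    · rintro ⟨h1, h2, h3⟩
      refine ⟨?_, fun a b => ?_⟩
      · rw [hsn, linearIndependent_fin_snoc]
        exact ⟨h1.1, h3⟩
      · induction a using Fin.lastCases with
        | last =>
          induction b using Fin.lastCases with
          | last => exact B_self _
          | cast b => rw [B_swap, neg_eq_zero]; exact h2 _ ⟨b, rfl⟩
        | cast a =>
          induction b using Fin.lastCases with
          | last => exact h2 _ ⟨a, rfl⟩
          | cast b => exact h1.2 a b
  · intro j _ v hv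
    have hle : Submodule.span F (Set.range v) ≤ orth (Set.range v) := by
      rw [Submodule.span_le]
      rintro x ⟨a, rfl⟩ y ⟨b, rfl⟩
      exact hv.2 b a
    have h1 : Nat.card (orth (Set.range v)) = Fintype.card F ^ (2 * m - j) := by
      rw [Module.natCard_eq_pow_finrank (K := F), finrank_orth hv.1, Nat.card_eq_fintype_card]
    have h2 : Nat.card (Submodule.span F (Set.range v)) = Fintype.card F ^ j := by
      rw [Module.natCard_eq_pow_finrank (K := F), finrank_span_eq_card hv.1, Fintype.card_fin, Nat.card_eq_fintype_card]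
    rw [← h1, ← h2]
    exact Set.ncard_sdiff (s := ((Submodule.span F (Set.range v) : Submodule F (V m F)) : Set (V m F)))
      (t := ((orth (Set.range v) : Submodule F (V m F)) : Set (V m F))) hle

theorem card_fixer_tuple {k : ℕ} {v : Fin k → V m F} (hv : IsIso F m k v) :
    (∏ i ∈ Finset.range k, (Fintype.card F ^ (2 * m - i) - Fintype.card F ^ i))
      * Nat.card (fixer (Set.range v) : Subgroup (Sp m F))
      = Fintype.card F ^ (m ^ 2) * ∏ i ∈ Finset.range m, (Fintype.card F ^ (2 * (i + 1)) - 1) := by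
  rw [← card_isIso F m k, ← CfsgLib.Symplectic.Order.card_Sp]
  rw [← Subgroup.card_top (G := Sp m F), card_eq_mul hv ⊤ (fun w => IsIso F m k w)
    (fun A => iff_of_true trivial (isIso_map A hv)) (fun w hw => hw)]

theorem factor (q k : ℕ) (hk : k ≤ m) (hq : 1 ≤ q) :
    (∏ i ∈ Finset.range k, (q ^ (2 * m - i) - q ^ i))
      * (q ^ (k * (k + 1) / 2 + 2 * k * (m - k)) * (q ^ ((m - k) ^ 2) * ∏ i ∈ Finset.range (m - k), (q ^ (2 * (i + 1)) - 1)))
      = q ^ (m ^ 2) * ∏ i ∈ Finset.range m, (q ^ (2 * (i + 1)) - 1) := by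
  have hA : ∏ i ∈ Finset.range k, (q ^ (2 * m - i) - q ^ i)
      = q ^ (k * (k - 1) / 2) * ∏ i ∈ Finset.range k, (q ^ (2 * (m - i)) - 1) := by
    rw [← Finset.sum_range_id, ← Finset.prod_pow_eq_pow_sum, ← Finset.prod_mul_distrib]
    refine Finset.prod_congr rfl fun i hi => ?_
    have := Finset.mem_range.1 hi
    rw [Nat.mul_sub, mul_one, ← pow_add, show i + 2 * (m - i) = 2 * m - i by omega]
  have hB : ∏ i ∈ Finset.range m, (q ^ (2 * (i + 1)) - 1)
      = (∏ i ∈ Finset.range (m - k), (q ^ (2 * (i + 1)) - 1)) * ∏ i ∈ Finset.range k, (q ^ (2 * (m - i)) - 1) := by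
    conv_lhs => rw [show m = (m - k) + k by omega, Finset.prod_range_add]
    congr 1
    rw [← Finset.prod_range_reflect]
    refine Finset.prod_congr rfl fun i hi => ?_
    have := Finset.mem_range.1 hi
    congr 2
    omega
  have he : k * (k - 1) / 2 + (k * (k + 1) / 2 + 2 * k * (m - k)) + (m - k) ^ 2 = m ^ 2 := by
    obtain ⟨d, rfl⟩ := Nat.exists_eq_add_of_le hk
    rw [Nat.add_sub_cancel_left]
    have h1 : k * (k - 1) / 2 + k * (k + 1) / 2 = k * k := by
      rw [← Nat.add_div_of_dvd_left]
      · rw [show k * (k - 1) + k * (k + 1) = 2 * (k * k) by cases k <;> simp <;> ring, Nat.mul_div_cancel_left _ two_pos]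
      · exact (Nat.even_mul_succ_self k).two_dvd
    nlinarith [h1]
  rw [hA, hB, ← he, pow_add, pow_add, pow_add, pow_add]
  ring

theorem mem_stab (S : Set (V m F)) (A : Sp m F) (hS : S.Finite) :
    A ∈ Cfsg.stabilizing (Cfsg.spToMat m F) S ↔ ∀ v ∈ S, A.1 *ᵥ v ∈ S := by
  constructor
  · intro h v hv; exact (h v).1 hv
  · intro h v
    refine ⟨h v, fun hAv => ?_⟩
    haveI : Finite S := hS.to_subtype
    let f : S → S := fun x => ⟨A.1 *ᵥ x.1, h x.1 x.2⟩
    have hf : Function.Injective f := fun x y hxy => Subtype.ext (by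
      have h' : A.1 *ᵥ x.1 = A.1 *ᵥ y.1 := congrArg Subtype.val hxy
      rw [← mulVec_inv_cancel A x.1, h', mulVec_inv_cancel])
    obtain ⟨⟨w, hw⟩, hwv'⟩ := (Finite.injective_iff_surjective.1 hf) ⟨_, hAv⟩
    have hwv : A.1 *ᵥ w = A.1 *ᵥ v := congrArg Subtype.val hwv'
    have : (A⁻¹).1 *ᵥ (A.1 *ᵥ w) = (A⁻¹).1 *ᵥ (A.1 *ᵥ v) := congrArg _ hwv
    rw [mulVec_inv_cancel, mulVec_inv_cancel] at this
    exact this ▸ hw

theorem card_stab {k : ℕ} (hk : k ≤ m) (W : Submodule F (V m F)) (hWk : Module.finrank F W = k)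
    (hW : ∀ u ∈ W, ∀ v ∈ W, B u v = 0) :
    Nat.card (Cfsg.stabilizing (Cfsg.spToMat m F) (W : Set (V m F))) =
      Fintype.card F ^ (k * (k + 1) / 2 + 2 * k * (m - k)) *
      (Fintype.card F ^ ((m - k) ^ 2) * ∏ i ∈ Finset.range (m - k), (Fintype.card F ^ (2 * (i + 1)) - 1)) *
      ∏ i : Fin k, (Fintype.card F ^ k - Fintype.card F ^ (i : ℕ)) := by
  classical
  let b := Module.finBasisOfFinrankEq F W hWk
  have hv : IsIso F m k (fun i => (b i : V m F)) :=
    ⟨b.linearIndependent.map' W.subtype W.ker_subtype, fun i j => hW _ (b i).2 _ (b j).2⟩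
  rw [card_eq_mul hv _ (fun w => LinearIndependent F w ∧ ∀ i, w i ∈ W)
    (fun A => by
      rw [mem_stab _ _ (Set.toFinite _)]
      refine ⟨fun h => ⟨(isIso_map A hv).1, fun i => h _ (b i).2⟩, fun h x hx => ?_⟩
      have hx' : x = ∑ i, b.repr ⟨x, hx⟩ i • (b i : V m F) := by
        have h' := congrArg W.subtype (b.sum_repr ⟨x, hx⟩)
        simp only [map_sum, map_smul] at h'
        exact h'.symm
      rw [hx', Matrix.mulVec_sum]
      exact W.sum_mem fun i _ => by rw [Matrix.mulVec_smul]; exact W.smul_mem _ (h.2 i))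
    (fun w hw => ⟨hw.1, fun i j => hW _ (hw.2 i) _ (hw.2 j)⟩)]
  have hT : Nat.card {w : Fin k → V m F // LinearIndependent F w ∧ ∀ i, w i ∈ W}
      = ∏ i : Fin k, (Fintype.card F ^ k - Fintype.card F ^ (i : ℕ)) := by
    have h := card_linearIndependent (K := F) (V := W) (k := k) (by rw [hWk])
    rw [hWk] at h
    rw [← h]
    exact Nat.card_congr
      { toFun := fun w => ⟨fun i => ⟨w.1 i, w.2.2 i⟩, LinearIndependent.of_comp W.subtype w.2.1⟩
        invFun := fun t => ⟨fun i => (t.1 i : V m F), t.2.map' W.subtype W.ker_subtype, fun i => (t.1 i).2⟩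
        left_inv := fun w => rfl
        right_inv := fun t => rfl }
  have hfix := card_fixer_tuple hv
  rw [← factor (Fintype.card F) k hk Fintype.card_pos] at hfix
  have hpos : 0 < ∏ i ∈ Finset.range k, (Fintype.card F ^ (2 * m - i) - Fintype.card F ^ i) :=
    Finset.prod_pos fun i hi => Nat.sub_pos_of_lt (Nat.pow_lt_pow_right Fintype.one_lt_card
      (by have := Finset.mem_range.1 hi; omega))
  rw [hT, Nat.eq_of_mul_eq_mul_left hpos hfix]
  ring

theorem card_borel :
    Nat.card ↥(⨅ k : Fin m, Cfsg.stabilizing (Cfsg.spToMat m F) {v : V m F |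
      (∀ i : Fin m, (k : ℕ) < (i : ℕ) → v (Sum.inl i) = 0) ∧ ∀ i : Fin m, v (Sum.inr i) = 0})
      = Fintype.card F ^ (m ^ 2) * (Fintype.card F - 1) ^ m := by
  classical
  set q := Fintype.card F with hq
  let e : Fin m → V m F := fun i => Pi.single (Sum.inl i) 1
  have he : IsIso F m m e := by
    refine ⟨(Pi.linearIndependent_single_one _ F).comp Sum.inl Sum.inl_injective, fun i j => ?_⟩
    rw [B_single_inl]
    simp [e]
  have hWsum : ∀ x : V m F, (∀ i : Fin m, x (Sum.inr i) = 0) → x = ∑ i, x (Sum.inl i) • e i := by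
    intro x hx
    funext s
    rcases s with s | s
    · simp [e, Finset.sum_apply, Pi.single_apply]
    · simp [e, hx s]
  let W : ℕ → V m F → Prop := fun k x =>
    (∀ i : Fin m, k < (i : ℕ) → x (Sum.inl i) = 0) ∧ ∀ i : Fin m, x (Sum.inr i) = 0
  rw [card_eq_mul he _ (fun w => (∀ i : Fin m, W (i : ℕ) (w i)) ∧ IsIso F m m w) (fun A => ?_) (fun w hw => hw.2)]
  · have hfix := card_fixer_tuple he
    rw [← factor q m le_rfl Fintype.card_pos] at hfix
    have hpos : 0 < ∏ i ∈ Finset.range m, (q ^ (2 * m - i) - q ^ i) :=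
      Finset.prod_pos fun i hi => Nat.sub_pos_of_lt (Nat.pow_lt_pow_right Fintype.one_lt_card
        (by have := Finset.mem_range.1 hi; omega))
    rw [Nat.eq_of_mul_eq_mul_left hpos hfix]
    let P : ∀ k : ℕ, (Fin k → V m F) → Prop := fun k w => (∀ i : Fin k, W (i : ℕ) (w i)) ∧
      ∀ (i : Fin k) (hi : (i : ℕ) < m), w i (Sum.inl ⟨i, hi⟩) ≠ 0
    have hP : ∀ w : Fin m → V m F, ((∀ i : Fin m, W (i : ℕ) (w i)) ∧ IsIso F m m w) ↔ P m w := by
      intro w
      constructor
      · rintro ⟨hw, hli, -⟩
        refine ⟨hw, fun i hi h0 => ?_⟩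
        -- otherwise too many independent vectors in a small space
        let L : V m F →ₗ[F] (Fin (i : ℕ) → F) := LinearMap.pi fun s => LinearMap.proj (Sum.inl ⟨(s : ℕ), by omega⟩)
        let u : Fin ((i : ℕ) + 1) → V m F := fun j => w ⟨(j : ℕ), by omega⟩
        have hu : LinearIndependent F u := hli.comp _ (fun a b hab => Fin.ext (by simpa using congrArg Fin.val hab))
        have hLu : LinearIndependent F (L ∘ u) := by
          rw [Fintype.linearIndependent_iff] at hu ⊢
          intro c hc
          refine hu c (funext fun s => ?_)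
          rcases s with s | s
          · rcases lt_trichotomy (s : ℕ) (i : ℕ) with h | h | h
            · have := congrFun hc ⟨s, h⟩
              simpa [L, u, Finset.sum_apply] using this
            · rw [Finset.sum_apply]
              refine Finset.sum_eq_zero fun j _ => ?_
              rcases Nat.lt_or_ge (j : ℕ) (i : ℕ) with hj | hj
              · simp only [u, Pi.smul_apply]
                rw [(hw ⟨j, by omega⟩).1 s (by simp only; omega), smul_zero]
              · have e1 : (⟨(j : ℕ), by omega⟩ : Fin m) = i := Fin.ext (by simp only; omega)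
                have e2 : s = ⟨(i : ℕ), hi⟩ := Fin.ext h
                simp only [u, e1, e2, Pi.smul_apply, h0, smul_zero, Pi.zero_apply]
            · rw [Finset.sum_apply]
              refine Finset.sum_eq_zero fun j _ => ?_
              simp only [u, Pi.smul_apply]
              rw [(hw ⟨j, by omega⟩).1 s (by simp only; omega), smul_zero]
          · rw [Finset.sum_apply]
            refine Finset.sum_eq_zero fun j _ => ?_
            simp only [u, Pi.smul_apply]
            rw [(hw ⟨j, by omega⟩).2 s, smul_zero]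
        have := hLu.fintype_card_le_finrank
        rw [Module.finrank_fintype_fun_eq_card, Fintype.card_fin, Fintype.card_fin] at this
        omega
      · intro hw
        refine ⟨hw.1, ?_, fun i j => ?_⟩
        · rw [Fintype.linearIndependent_iff]
          intro c hc
          by_contra hne
          push Not at hne
          let S := Finset.univ.filter fun i => c i ≠ 0
          have hS : S.Nonempty := let ⟨i, hi⟩ := hne; ⟨i, by simp [S, hi]⟩
          have h := congrFun hc (Sum.inl (S.max' hS))
          rw [Finset.sum_apply, Finset.sum_eq_single (S.max' hS)] at h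
          · have hmax : c (S.max' hS) ≠ 0 := (Finset.mem_filter.1 (S.max'_mem hS)).2
            rw [Pi.smul_apply, Pi.zero_apply, smul_eq_mul] at h
            exact (mul_ne_zero hmax (hw.2 (S.max' hS) (S.max' hS).2)) h
          · intro j _ hj
            by_cases hcj : c j = 0
            · simp [hcj]
            · have hlt : j < S.max' hS := lt_of_le_of_ne (S.le_max' j (by simp [S, hcj])) hj
              rw [Pi.smul_apply, (hw.1 j).1 (S.max' hS) hlt, smul_zero]
          · simp
        · rw [B_expand]
          exact Finset.sum_eq_zero fun s _ => by rw [(hw.1 i).2, (hw.1 j).2]; ring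
    rw [Nat.card_congr (Equiv.subtypeEquivRight hP),
      card_tuples P (fun k _ x => W k x ∧ ∀ hk : k < m, x (Sum.inl ⟨k, hk⟩) ≠ 0) (fun k => (q - 1) * q ^ k)
        (fun v => ⟨fun i => i.elim0, fun i => i.elim0⟩) m ?_ ?_]
    · rw [Finset.prod_mul_distrib, Finset.prod_const, Finset.card_range, Finset.prod_pow_eq_pow_sum, Finset.sum_range_id,
        Nat.sub_self, mul_zero, add_zero, zero_pow two_ne_zero, pow_zero, Finset.prod_range_zero, mul_one, mul_one,
        mul_assoc, ← pow_add, mul_comm]
      congr 2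
      rw [← Nat.add_div_of_dvd_left]
      · rw [show m * (m - 1) + m * (m + 1) = 2 * (m * m) by cases m <;> simp <;> ring, Nat.mul_div_cancel_left _ two_pos, sq]
      · exact (Nat.even_mul_succ_self m).two_dvd
    · intro j _ v
      constructor
      · rintro ⟨h1, h2⟩
        exact ⟨⟨fun i => h1 i.castSucc, fun i hi => h2 i.castSucc hi⟩, h1 (Fin.last j), fun hk => h2 (Fin.last j) hk⟩
      · rintro ⟨⟨h1, h2⟩, h3, h4⟩
        refine ⟨fun i => ?_, fun i hi => ?_⟩
        · induction i using Fin.lastCases with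
          | last => exact h3
          | cast i => exact h1 i
        · induction i using Fin.lastCases with
          | last => exact h4 hi
          | cast i => exact h2 i hi
    · intro j hj v _
      have hc : Nat.card ({a : F // a ≠ 0} × (Fin j → F)) = (q - 1) * q ^ j := by
        rw [Nat.card_prod, Nat.card_fun, Nat.card_fin, Nat.card_eq_fintype_card, Nat.card_eq_fintype_card,
          Fintype.card_subtype_compl, Fintype.card_subtype_eq]
      rw [← hc]
      refine Nat.card_congr
        { toFun := fun x => (⟨x.1 (Sum.inl ⟨j, hj⟩), x.2.2 hj⟩, fun s => x.1 (Sum.inl ⟨s, by omega⟩))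
          invFun := fun p => ⟨Sum.elim (fun i => if h : (i : ℕ) < j then p.2 ⟨i, h⟩ else if (i : ℕ) = j then p.1.1 else 0) (fun _ => 0),
            ⟨fun i hi => by simp only [Sum.elim_inl]; rw [dif_neg (by omega), if_neg (by omega)], fun i => rfl⟩,
            fun hk => by simp only [Sum.elim_inl]; rw [dif_neg (by omega), if_pos trivial]; exact p.1.2⟩
          left_inv := fun x => by
            refine Subtype.ext (funext fun s => ?_)
            rcases s with s | s
            · simp only [Sum.elim_inl]
              rcases lt_trichotomy (s : ℕ) j with h | h | h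
              · rw [dif_pos h]
              · rw [dif_neg (by omega), if_pos h]
                exact congrArg (fun t => x.1 (Sum.inl t)) (Fin.ext h.symm)
              · rw [dif_neg (by omega), if_neg (by omega)]
                exact (x.2.1.1 s h).symm
            · exact (x.2.1.2 s).symm
          right_inv := fun p => by
            refine Prod.ext (Subtype.ext ?_) (funext fun s => ?_)
            · simp
            · simp [s.2] }
  · rw [Subgroup.mem_iInf]
    constructor
    · intro h
      refine ⟨fun i => ?_, isIso_map A he⟩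
      refine ((mem_stab _ _ (Set.toFinite _)).1 (h i)) _ ⟨fun s hs => ?_, fun s => ?_⟩
      · simp [e, Pi.single_apply, Fin.ext_iff]; omega
      · simp [e]
    · rintro ⟨h, -⟩ k
      rw [mem_stab _ _ (Set.toFinite _)]
      rintro x ⟨hx1, hx2⟩
      rw [hWsum x hx2, Matrix.mulVec_sum]
      refine ⟨fun i hi => ?_, fun i => ?_⟩
      · rw [Finset.sum_apply]
        refine Finset.sum_eq_zero fun s _ => ?_
        rw [Matrix.mulVec_smul, Pi.smul_apply]
        rcases Nat.lt_or_ge (k : ℕ) (s : ℕ) with hs | hs
        · rw [hx1 s hs, zero_smul]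
        · rw [show (A.1 *ᵥ e s) (Sum.inl i) = 0 from (h s).1 i (by omega), smul_zero]
      · rw [Finset.sum_apply]
        exact Finset.sum_eq_zero fun s _ => by rw [Matrix.mulVec_smul, Pi.smul_apply, show (A.1 *ᵥ e s) (Sum.inr i) = 0 from (h s).2 i, smul_zero]

end CfsgLib.Symplectic.IsoTuples
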