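import Mathlib
import Cfsg.Agent.Lib.Symplectic.IsoTuples
import Cfsg.Agent.Lib.Symplectic.InvolutionClasses

/-!
Orders of involution centralisers in symplectic groups in characteristic two.
-/

set_option autoImplicit false
open scoped Matrix

namespace CfsgLib.Symplectic.InvolutionCentralizer

open CfsgLib.Symplectic.Basic CfsgLib.Symplectic.InvolutionClasses CfsgLib.Symplectic.IsoTuples

variable {F : Type*} [Field F] [Fintype F]

/-- The number of orthonormal tuples. -/
theorem card_orthonormal [CharP F 2] (s : ℕ) :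
    Nat.card {M : Matrix (Fin s) (Fin s) F // M * Mᵀ = 1} =
      ∏ j ∈ Finset.range s, (Fintype.card F ^ (s - j - 1) - (if Odd (s - j) ∧ j + 1 < s then 1 else 0)) := by
  classical
  let e : Fin s → F := fun _ => 1
  have hdot : ∀ x : Fin s → F, x ⬝ᵥ x = (x ⬝ᵥ e) * (x ⬝ᵥ e) := fun x => by
    simp only [dotProduct, e, mul_one, CharTwo.sum_mul_self]
  let P : ∀ j : ℕ, (Fin j → Fin s → F) → Prop := fun j v =>
    (∀ a b, v a ⬝ᵥ v b = if a = b then 1 else 0) ∧ (j < s → ∑ a, v a ≠ e)
  have hP : ∀ M : Matrix (Fin s) (Fin s) F, M * Mᵀ = 1 ↔ P s M := fun M => by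
    simp only [P, lt_irrefl, false_implies, and_true, ← Matrix.ext_iff, Matrix.mul_apply', Matrix.one_apply]
    rfl
  rw [Nat.card_congr (Equiv.subtypeEquivRight hP)]
  refine card_tuples (α := Fin s → F) P (fun j v x => (∀ a, v a ⬝ᵥ x = 0) ∧ x ⬝ᵥ x = 1 ∧ (j + 1 < s → x + ∑ a, v a ≠ e))
    _ ?_ s ?_ ?_
  · intro v
    refine ⟨fun a => a.elim0, fun h => ?_⟩
    simp only [Finset.univ_eq_empty, Finset.sum_empty]
    exact fun h0 => zero_ne_one (congrFun h0 ⟨0, h⟩)
  · intro j hj v
    constructor
    · rintro ⟨h1, h2⟩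
      refine ⟨⟨fun a b => ?_, fun _ hbad => ?_⟩, fun a => ?_, ?_, fun h => ?_⟩
      · simp only [Fin.init, h1, Fin.castSucc_inj]
      · have hx : v (Fin.last j) ⬝ᵥ v (Fin.last j) = 1 := by rw [h1, if_pos rfl]
        rw [hdot, ← hbad, dotProduct_sum, Finset.sum_eq_zero] at hx
        · exact (zero_ne_one (α := F)) (by simpa using hx)
        · intro a _
          show v (Fin.last j) ⬝ᵥ v a.castSucc = 0
          rw [h1, if_neg (Fin.castSucc_lt_last a).ne']
      · show v a.castSucc ⬝ᵥ v (Fin.last j) = 0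
        rw [h1, if_neg (Fin.castSucc_lt_last a).ne]
      · rw [h1, if_pos rfl]
      · have := h2 h
        rw [Fin.sum_univ_castSucc, add_comm] at this
        exact this
    · rintro ⟨⟨h1, -⟩, h2, h3, h4⟩
      refine ⟨fun a b => ?_, fun h => ?_⟩
      · induction a using Fin.lastCases with
        | last =>
          induction b using Fin.lastCases with
          | last => rw [h3, if_pos rfl]
          | cast b =>
            rw [dotProduct_comm, if_neg (Fin.castSucc_lt_last b).ne']
            exact h2 b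
        | cast a =>
          induction b using Fin.lastCases with
          | last => rw [if_neg (Fin.castSucc_lt_last a).ne]; exact h2 a
          | cast b => simpa [Fin.init, Fin.castSucc_inj] using h1 a b
      · rw [Fin.sum_univ_castSucc, add_comm]; exact h4 h
  · rintro j hj v ⟨h1, h2⟩
    let φ : (Fin s → F) →ₗ[F] (Fin j → F) × F :=
      (LinearMap.pi fun a => dotProductBilin F F (v a)).prod (dotProductBilin F F e)
    have hφ : ∀ x, φ x = (fun a => v a ⬝ᵥ x, e ⬝ᵥ x) := fun x => rfl
    have hsurj : Function.Surjective φ := by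
      rw [← LinearMap.range_eq_top]
      by_contra hne
      obtain ⟨f, hf0, hf⟩ := Submodule.exists_le_ker_of_lt_top _ (lt_top_iff_ne_top.2 hne)
      have hex : ∀ c d, f (c, d) = (∑ a, c a * f (Pi.single a 1, 0)) + d * f (0, 1) := fun c d => by
        have e0 : ((c, d) : (Fin j → F) × F) = (∑ a, c a • ((Pi.single a 1, 0) : (Fin j → F) × F)) + d • ((0, 1) : (Fin j → F) × F) := by
          refine Prod.ext ?_ ?_
          · ext b; simp [Prod.fst_sum, Finset.sum_apply, Pi.single_apply]
          · simp [Prod.snd_sum]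
        rw [e0, map_add, map_sum]; simp only [map_smul, smul_eq_mul]
      set β := f (0, 1)
      set γ : Fin j → F := fun a => f (Pi.single a 1, 0)
      have hvec : (∑ a, γ a • v a) + β • e = 0 := by
        funext i
        have := hf (⟨Pi.single i 1, rfl⟩ : φ (Pi.single i 1) ∈ LinearMap.range φ)
        rw [LinearMap.mem_ker, hφ, hex] at this
        simp only [dotProduct_single, mul_one] at this
        simpa [Finset.sum_apply, γ, mul_comm] using this
      have hγ : ∀ b, γ b + β = 0 := fun b => by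
        have hb := congrArg (v b ⬝ᵥ ·) hvec
        simp only [dotProduct_add, dotProduct_sum, dotProduct_smul, h1, smul_eq_mul, dotProduct_zero] at hb
        have hbe : v b ⬝ᵥ e = 1 := by
          have := hdot (v b)
          rw [h1, if_pos rfl] at this
          rcases mul_self_eq_one_iff.1 this.symm with h | h
          · exact h
          · rw [h, CharTwo.neg_eq]
        rw [hbe] at hb
        simpa using hb
      by_cases hβ : β = 0
      · apply hf0
        refine LinearMap.ext fun ⟨c, d⟩ => ?_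
        rw [hex, hβ, mul_zero, add_zero, Finset.sum_eq_zero]
        · rfl
        · intro a _
          have := hγ a
          rw [hβ, add_zero] at this
          show c a * γ a = 0
          rw [this, mul_zero]
      · apply h2 hj
        have hg : ∀ b, γ b = -β := fun b => eq_neg_of_add_eq_zero_left (hγ b)
        simp only [hg, ← Finset.smul_sum, neg_smul, Finset.sum_neg_distrib] at hvec
        rw [neg_add_eq_zero] at hvec
        exact smul_right_injective _ hβ hvec
    have hker : Nat.card (LinearMap.ker φ) = Fintype.card F ^ (s - j - 1) := by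
      have hd := φ.finrank_range_add_finrank_ker
      rw [LinearMap.range_eq_top.2 hsurj, finrank_top, Module.finrank_prod, Module.finrank_fintype_fun_eq_card,
        Module.finrank_fintype_fun_eq_card, Module.finrank_self, Fintype.card_fin, Fintype.card_fin] at hd
      rw [Module.natCard_eq_pow_finrank (K := F), Nat.card_eq_fintype_card]
      congr 1; omega
    obtain ⟨x0, hx0⟩ := hsurj (0, 1)
    have hfib : Nat.card {x // φ x = (0, 1)} = Fintype.card F ^ (s - j - 1) := by
      rw [← hker]
      exact Nat.card_congr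
        { toFun := fun x => ⟨x.1 - x0, by rw [LinearMap.mem_ker, map_sub, x.2, hx0, sub_self]⟩
          invFun := fun x => ⟨x.1 + x0, by rw [map_add, LinearMap.mem_ker.1 x.2, hx0, zero_add]⟩
          left_inv := fun x => Subtype.ext (sub_add_cancel _ _)
          right_inv := fun x => Subtype.ext (add_sub_cancel_right _ _) }
    have hS : ∀ x, ((∀ a, v a ⬝ᵥ x = 0) ∧ x ⬝ᵥ x = 1) ↔ φ x = (0, 1) := fun x => by
      rw [hφ, Prod.ext_iff, hdot, mul_self_eq_one_iff, CharTwo.neg_eq, or_self, dotProduct_comm x e, funext_iff]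
      rfl
    set b := e - ∑ a, v a with hb
    have hbmem : φ b = (0, 1) ↔ Odd (s - j) := by
      have hve : ∀ a, v a ⬝ᵥ e = 1 := fun a => by
        have := hdot (v a)
        rw [h1, if_pos rfl] at this
        rcases mul_self_eq_one_iff.1 this.symm with h | h
        · exact h
        · rw [h, CharTwo.neg_eq]
      have hcast : e ⬝ᵥ b = ((s - j : ℕ) : F) := by
        rw [hb, dotProduct_sub, dotProduct_sum, Nat.cast_sub hj.le]
        simp only [dotProduct_comm e, hve, Finset.sum_const, Finset.card_univ, Fintype.card_fin, nsmul_eq_mul, mul_one]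
        simp [dotProduct, e]
      rw [hφ, Prod.ext_iff, hcast]
      have hz : (fun a => v a ⬝ᵥ b) = 0 := funext fun a => by
        simp [hb, dotProduct_sub, dotProduct_sum, h1, hve]
      simp only [hz, true_and]
      rcases Nat.even_or_odd (s - j) with h | h
      · obtain ⟨r, hr⟩ := h
        simp [hr, CharTwo.add_self_eq_zero]
      · obtain ⟨r, hr⟩ := h
        simp [hr, two_mul, CharTwo.add_self_eq_zero]
    have hSeq : {x : Fin s → F | (∀ a, v a ⬝ᵥ x = 0) ∧ x ⬝ᵥ x = 1 ∧ (j + 1 < s → x + ∑ a, v a ≠ e)}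
        = {x | φ x = (0, 1)} \ (if Odd (s - j) ∧ j + 1 < s then {b} else ∅) := by
      ext x
      simp only [Set.mem_ofPred_eq, Set.mem_diff, ← hS]
      have hxb : x + ∑ a, v a = e ↔ x = b := by rw [hb, eq_sub_iff_add_eq]
      split_ifs with hc
      · simp only [Set.mem_singleton_iff, ne_eq, hxb]
        exact ⟨fun h => ⟨⟨h.1, h.2.1⟩, h.2.2 hc.2⟩, fun h => ⟨h.1.1, h.1.2, fun _ => h.2⟩⟩
      · simp only [Set.mem_empty_iff_false, not_false_eq_true, and_true, ne_eq, hxb]
        refine ⟨fun h => ⟨h.1, h.2.1⟩, fun h => ⟨h.1, h.2, fun hlt hx => hc ⟨hbmem.1 ?_, hlt⟩⟩⟩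
        rw [← hx]; exact (hS x).1 h
    show Nat.card {x : Fin s → F // x ∈ {x : Fin s → F | (∀ a, v a ⬝ᵥ x = 0) ∧ x ⬝ᵥ x = 1 ∧ (j + 1 < s → x + ∑ a, v a ≠ e)}} = _
    rw [Nat.card_coe_set_eq, hSeq]
    have hc : ({x | φ x = (0, 1)} : Set (Fin s → F)).ncard = Fintype.card F ^ (s - j - 1) := hfib
    split_ifs with hh
    · rw [Set.ncard_sdiff_singleton_of_mem (show b ∈ {x | φ x = (0, 1)} from hbmem.2 hh.1), hc]
    · rw [Set.diff_empty, hc, Nat.sub_zero]

theorem prod_orth (q : ℕ) : ∀ k : ℕ,
    (∏ j ∈ Finset.range (2 * k + 1), (q ^ (2 * k + 1 - j - 1) - (if Odd (2 * k + 1 - j) ∧ j + 1 < 2 * k + 1 then 1 else 0)))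
      = q ^ (k ^ 2) * ∏ i ∈ Finset.range k, (q ^ (2 * (i + 1)) - 1) ∧
    (∏ j ∈ Finset.range (2 * k + 2), (q ^ (2 * k + 2 - j - 1) - (if Odd (2 * k + 2 - j) ∧ j + 1 < 2 * k + 2 then 1 else 0)))
      = q ^ (2 * k + 1) * (q ^ (k ^ 2) * ∏ i ∈ Finset.range k, (q ^ (2 * (i + 1)) - 1)) := by
  have step : ∀ n, (∏ j ∈ Finset.range (n + 1), (q ^ (n + 1 - j - 1) - (if Odd (n + 1 - j) ∧ j + 1 < n + 1 then 1 else 0)))
      = (q ^ n - (if Odd (n + 1) ∧ 1 < n + 1 then 1 else 0)) *
        ∏ j ∈ Finset.range n, (q ^ (n - j - 1) - (if Odd (n - j) ∧ j + 1 < n then 1 else 0)) := fun n => by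
    rw [Finset.prod_range_succ', mul_comm]
    congr 1
    refine Finset.prod_congr rfl fun j _ => ?_
    simp only [Nat.add_sub_add_right, Nat.add_lt_add_iff_right]
  intro k
  induction k with
  | zero =>
    refine ⟨by simp, ?_⟩
    rw [show 2 * 0 + 2 = 1 + 1 from rfl, step 1, if_neg (fun h => absurd h.1 (by decide))]
    simp
  | succ k ih =>
    have h1 : (∏ j ∈ Finset.range (2 * (k + 1) + 1), (q ^ (2 * (k + 1) + 1 - j - 1) - (if Odd (2 * (k + 1) + 1 - j) ∧ j + 1 < 2 * (k + 1) + 1 then 1 else 0)))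
        = q ^ ((k + 1) ^ 2) * ∏ i ∈ Finset.range (k + 1), (q ^ (2 * (i + 1)) - 1) := by
      rw [step (2 * (k + 1)), if_pos ⟨odd_two_mul_add_one _, by omega⟩, show 2 * (k + 1) = 2 * k + 2 by ring, ih.2,
        Finset.prod_range_succ]
      rw [show 2 * (k + 1) = 2 * k + 2 by ring]
      ring
    refine ⟨h1, ?_⟩
    rw [show 2 * (k + 1) + 2 = (2 * (k + 1) + 1) + 1 from rfl, step (2 * (k + 1) + 1),
      if_neg (fun h => by obtain ⟨⟨r, hr⟩, -⟩ := h; omega), Nat.sub_zero, h1]

variable [CharP F 2] {m : ℕ}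

/-- Centraliser order from the number of matrices fixing the shape of a frame. -/
theorem card_centralizer {t : Sp m F} {s : ℕ} {c : F} (Q : QuadraticForm F (V m F))
    (hQ : ∀ u v, QuadraticMap.polar (⇑Q) u v = B u v) (hI : CfsgLib.Geometry.InvolutionFrame.Inv Q (N t))
    (σ : Fin s → Fin s) (hσ : Function.Involutive σ) (w : Fin s → V m F)
    (hw : CfsgLib.Geometry.InvolutionFrame.Frame Q (N t) σ c w) (hs : (t.1 - 1).rank = s) :
    Nat.card ↥(Subgroup.centralizer ({t} : Set (Sp m F))) =
      Nat.card {M : Matrix (Fin s) (Fin s) F // ∀ j l, ∑ i, M j i * M l (σ i) = if l = σ j then 1 else 0} *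
      (Fintype.card F ^ (s * (s + 1) / 2 + 2 * s * (m - s)) *
        (Fintype.card F ^ ((m - s) ^ 2) * ∏ i ∈ Finset.range (m - s), (Fintype.card F ^ (2 * (i + 1)) - 1))) := by
  classical
  have hli : ∀ u : Fin s → V m F, (∀ x, N t x = ∑ i, B (u i) x • u (σ i)) → LinearIndependent F u := by
    intro u hu
    refine linearIndependent_iff_card_le_finrank_span.2 ?_
    refine ((Fintype.card_fin s).trans (hs.symm.trans (rank_eq t))).trans_le ?_
    refine Submodule.finrank_mono ?_
    rintro _ ⟨x, rfl⟩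
    rw [hu]
    exact Submodule.sum_mem _ fun i _ => Submodule.smul_mem _ _ (Submodule.subset_span ⟨_, rfl⟩)
  have hwf : ∀ x, N t x = ∑ i, B (w i) x • w (σ i) := fun x => by rw [hw.form]; simp only [hQ]
  have hv : IsIso F m s w := ⟨hli w hwf, fun i j => by rw [← hQ]; exact hI.range_perp (hw.mem i) (hw.mem j)⟩
  have hsm : s ≤ m := by
    have h1 := hv.1.fintype_card_le_finrank
    have h2 := (N t).finrank_range_add_finrank_ker
    have h3 := Submodule.finrank_mono (show LinearMap.range (N t) ≤ LinearMap.ker (N t) from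
      fun a ha => LinearMap.mem_ker.2 (hI.kill ha))
    rw [Module.finrank_fintype_fun_eq_card, Fintype.card_sum, Fintype.card_fin] at h2
    rw [rank_eq] at hs
    omega
  have hH : ∀ A : Sp m F, A ∈ Subgroup.centralizer ({t} : Set (Sp m F)) ↔
      ((∀ x, N t x = ∑ i, B (A.1 *ᵥ w i) x • (A.1 *ᵥ w (σ i))) ∧ IsIso F m s fun i => A.1 *ᵥ w i) := by
    intro A
    have hAN : ∀ y, A.1 *ᵥ N t y = ∑ i, B (A.1 *ᵥ w i) (A.1 *ᵥ y) • (A.1 *ᵥ w (σ i)) := fun y => by
      rw [hwf, Matrix.mulVec_sum]; simp only [Matrix.mulVec_smul, B_map]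
    rw [Subgroup.mem_centralizer_singleton_iff, and_iff_left (isIso_map A hv)]
    constructor
    · intro h x
      have hc : A.1 *ᵥ (t.1 *ᵥ ((A⁻¹).1 *ᵥ x)) = t.1 *ᵥ x := by
        rw [← mulVec_mul, h, mulVec_mul, mulVec_cancel_inv]
      have := hAN ((A⁻¹).1 *ᵥ x)
      rw [mulVec_cancel_inv, N_apply, Matrix.mulVec_sub, hc, mulVec_cancel_inv, ← N_apply] at this
      exact this
    · intro h
      refine ext_mulVec fun y => ?_
      have := (hAN y).trans (h (A.1 *ᵥ y)).symm
      rw [N_apply, N_apply, Matrix.mulVec_sub, sub_left_inj] at this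
      rw [mulVec_mul, mulVec_mul]
      exact this
  rw [card_eq_mul hv _ (fun u => (∀ x, N t x = ∑ i, B (u i) x • u (σ i)) ∧ IsIso F m s u) hH (fun u hu => hu.2)]
  congr 1
  · -- frames are matrices
    have hsurj : ∀ a : Fin s → F, ∃ x, ∀ i, B (w i) x = a i := by
      intro a
      let φ : V m F →ₗ[F] (Fin s → F) := LinearMap.pi fun i => B (w i)
      suffices h : LinearMap.range φ = ⊤ by
        obtain ⟨x, hx⟩ := LinearMap.range_eq_top.1 h a
        exact ⟨x, fun i => congrFun hx i⟩
      refine Submodule.eq_top_of_finrank_eq ?_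
      have h1 := φ.finrank_range_add_finrank_ker
      have h2 : LinearMap.ker φ = orth (Set.range w) := by
        ext x
        rw [LinearMap.mem_ker, mem_orth]
        exact ⟨by rintro h z ⟨i, rfl⟩; exact congrFun h i, fun h => funext fun i => h _ ⟨i, rfl⟩⟩
      rw [h2, finrank_orth hv.1, Module.finrank_fintype_fun_eq_card, Fintype.card_sum, Fintype.card_fin] at h1
      rw [Module.finrank_fintype_fun_eq_card, Fintype.card_fin]
      omega
    have hexp : ∀ (M : Matrix (Fin s) (Fin s) F) x,
        ∑ i, B (∑ j, M j i • w j) x • (∑ l, M l (σ i) • w l)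
          = ∑ l, (∑ j, (∑ i, M j i * M l (σ i)) * B (w j) x) • w l := by
      intro M x
      simp only [map_sum, map_smul, LinearMap.sum_apply, LinearMap.smul_apply, smul_eq_mul, Finset.smul_sum, smul_smul,
        Finset.sum_smul, Finset.sum_mul]
      rw [Finset.sum_comm]
      refine Finset.sum_congr rfl fun l _ => ?_
      rw [Finset.sum_comm]
      refine Finset.sum_congr rfl fun i _ => ?_
      refine Finset.sum_congr rfl fun j _ => ?_
      ring_nf
    have hcond : ∀ M : Matrix (Fin s) (Fin s) F,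
        (∀ j l, ∑ i, M j i * M l (σ i) = if l = σ j then 1 else 0) ↔
          ∀ x, N t x = ∑ i, B (∑ j, M j i • w j) x • (∑ l, M l (σ i) • w l) := by
      intro M
      simp only [hexp]
      constructor
      · intro h x
        rw [hwf]
        simp only [h, ite_mul, one_mul, zero_mul]
        refine Fintype.sum_bijective σ hσ.bijective _ _ fun i => ?_
        rw [Finset.sum_eq_single i]
        · rw [if_pos rfl]
        · intro j _ hj
          rw [if_neg fun e => hj (hσ.injective e.symm)]
        · simp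
      · intro h j l
        obtain ⟨x, hx⟩ := hsurj (Pi.single j 1)
        have := h x
        rw [hwf] at this
        simp only [hx, Pi.single_apply, ite_smul, one_smul, zero_smul, mul_ite, mul_one, mul_zero, Finset.sum_ite_eq',
          Finset.mem_univ, if_true] at this
        have h2 : ∑ r, ((if r = σ j then (1 : F) else 0) - ∑ i, M j i * M r (σ i)) • w r = 0 := by
          simp only [sub_smul, Finset.sum_sub_distrib, ite_smul, one_smul, zero_smul, Finset.sum_ite_eq', Finset.mem_univ,
            if_true, ← this, sub_self]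
        exact (sub_eq_zero.1 (Fintype.linearIndependent_iff.1 hv.1 _ h2 l)).symm
    let f : {M : Matrix (Fin s) (Fin s) F // ∀ j l, ∑ i, M j i * M l (σ i) = if l = σ j then 1 else 0} →
        {u : Fin s → V m F // (∀ x, N t x = ∑ i, B (u i) x • u (σ i)) ∧ IsIso F m s u} := fun M =>
      ⟨fun i => ∑ j, M.1 j i • w j, (hcond M.1).1 M.2, hli _ ((hcond M.1).1 M.2), fun a b => by
        simp only [map_sum, map_smul, LinearMap.sum_apply, LinearMap.smul_apply, hv.2, smul_zero, Finset.sum_const_zero]⟩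
    refine (Nat.card_congr (Equiv.ofBijective f ⟨fun M M' h => ?_, fun u => ?_⟩)).symm
    · refine Subtype.ext (Matrix.ext fun j i => ?_)
      have h' : ∑ j, M.1 j i • w j = ∑ j, M'.1 j i • w j := congrFun (congrArg Subtype.val h) i
      have h0 : ∑ j, (M.1 j i - M'.1 j i) • w j = 0 := by simp only [sub_smul, Finset.sum_sub_distrib, h', sub_self]
      exact sub_eq_zero.1 (Fintype.linearIndependent_iff.1 hv.1 _ h0 j)
    · obtain ⟨u, hu, hui⟩ := u
      have hspan : Submodule.span F (Set.range w) = Submodule.span F (Set.range u) := by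
        have e1 : ∀ r : Fin s → V m F, (∀ x, N t x = ∑ i, B (r i) x • r (σ i)) → LinearIndependent F r →
            Submodule.span F (Set.range r) = LinearMap.range (N t) := fun r hr hri => by
          refine (Submodule.eq_of_le_of_finrank_eq ?_ ?_).symm
          · rintro _ ⟨x, rfl⟩
            rw [hr]
            exact Submodule.sum_mem _ fun i _ => Submodule.smul_mem _ _ (Submodule.subset_span ⟨_, rfl⟩)
          · rw [← rank_eq, hs, finrank_span_eq_card hri, Fintype.card_fin]
        rw [e1 w hwf hv.1, e1 u hu hui.1]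
      have hmem : ∀ i, ∃ a : Fin s → F, ∑ j, a j • w j = u i := fun i =>
        (Submodule.mem_span_range_iff_exists_fun F).1 (hspan ▸ Submodule.subset_span ⟨i, rfl⟩)
      choose a ha using hmem
      refine ⟨⟨fun j i => a i j, (hcond _).2 fun x => ?_⟩, Subtype.ext (funext fun i => ha i)⟩
      simp only [ha]
      exact hu x
  · have hfix := card_fixer_tuple hv
    rw [← factor (Fintype.card F) s hsm Fintype.card_pos] at hfix
    exact Nat.eq_of_mul_eq_mul_left (Finset.prod_pos fun i hi => Nat.sub_pos_of_lt (Nat.pow_lt_pow_right Fintype.one_lt_card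
      (by have := Finset.mem_range.1 hi; omega))) hfix

/-- Non-alternating type. -/
theorem card_nonalt {t : Sp m F} (ht : t * t = 1) {s : ℕ} (hs : (t.1 - 1).rank = s)
    (hna : ∃ x, B x (N t x) ≠ 0) :
    Nat.card ↥(Subgroup.centralizer ({t} : Set (Sp m F))) =
      Nat.card {M : Matrix (Fin s) (Fin s) F // M * Mᵀ = 1} *
      (Fintype.card F ^ (s * (s + 1) / 2 + 2 * s * (m - s)) *
        (Fintype.card F ^ ((m - s) ^ 2) * ∏ i ∈ Finset.range (m - s), (Fintype.card F ^ (2 * (i + 1)) - 1))) := by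
  classical
  obtain ⟨Q, hQ, hI⟩ := exists_inv t ht
  obtain ⟨w, hw⟩ := hI.frame_one s (fun u hu => eq_zero_of_B_left fun x => by rw [← hQ]; exact hu x) hs
    (Or.inr (by simpa [hQ] using hna))
  rw [card_centralizer Q hQ hI id (fun _ => rfl) w hw hs]
  congr 1
  refine Nat.card_congr (Equiv.subtypeEquivRight fun M => ?_)
  simp only [← Matrix.ext_iff, Matrix.mul_apply, Matrix.transpose_apply, Matrix.one_apply, id, eq_comm]

theorem card_odd {t : Sp m F} (ht : t * t = 1) {s : ℕ} (hs : (t.1 - 1).rank = s) (hodd : Odd s) :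
    Nat.card ↥(Subgroup.centralizer ({t} : Set (Sp m F))) =
      (Fintype.card F ^ (((s - 1) / 2) ^ 2) * ∏ i ∈ Finset.range ((s - 1) / 2), (Fintype.card F ^ (2 * (i + 1)) - 1)) *
      (Fintype.card F ^ (s * (s + 1) / 2 + 2 * s * (m - s)) *
        (Fintype.card F ^ ((m - s) ^ 2) * ∏ i ∈ Finset.range (m - s), (Fintype.card F ^ (2 * (i + 1)) - 1))) := by
  rw [card_nonalt ht hs (by
    by_contra hc
    simp only [not_exists, not_not] at hc
    exact Nat.not_even_iff_odd.2 hodd (hs ▸ even_of_alt ht hc)), card_orthonormal]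
  obtain ⟨k, rfl⟩ := hodd
  rw [(prod_orth _ k).1, show (2 * k + 1 - 1) / 2 = k by omega]

theorem card_even {t : Sp m F} (ht : t * t = 1) {s : ℕ} (hs : (t.1 - 1).rank = s) (heven : Even s) (hs0 : s ≠ 0)
    (hna : ∃ x, B x (N t x) ≠ 0) :
    Nat.card ↥(Subgroup.centralizer ({t} : Set (Sp m F))) =
      (Fintype.card F ^ (s - 1) * (Fintype.card F ^ (((s - 2) / 2) ^ 2) * ∏ i ∈ Finset.range ((s - 2) / 2), (Fintype.card F ^ (2 * (i + 1)) - 1))) *
      (Fintype.card F ^ (s * (s + 1) / 2 + 2 * s * (m - s)) *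
        (Fintype.card F ^ ((m - s) ^ 2) * ∏ i ∈ Finset.range (m - s), (Fintype.card F ^ (2 * (i + 1)) - 1))) := by
  rw [card_nonalt ht hs hna, card_orthonormal]
  obtain ⟨k, hk⟩ := heven
  obtain ⟨k, rfl⟩ : ∃ r, k = r + 1 := ⟨k - 1, by omega⟩
  rw [show s = 2 * k + 2 by omega, (prod_orth _ k).2, show (2 * k + 2 - 2) / 2 = k by omega,
    show 2 * k + 2 - 1 = 2 * k + 1 by omega]

theorem card_alt {t : Sp m F} (ht : t * t = 1) {s : ℕ} (hs : (t.1 - 1).rank = s) (halt : ∀ x, B x (N t x) = 0) :
    Nat.card ↥(Subgroup.centralizer ({t} : Set (Sp m F))) =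
      (Fintype.card F ^ ((s / 2) ^ 2) * ∏ i ∈ Finset.range (s / 2), (Fintype.card F ^ (2 * (i + 1)) - 1)) *
      (Fintype.card F ^ (s * (s + 1) / 2 + 2 * s * (m - s)) *
        (Fintype.card F ^ ((m - s) ^ 2) * ∏ i ∈ Finset.range (m - s), (Fintype.card F ^ (2 * (i + 1)) - 1))) := by
  classical
  obtain ⟨Q, hQ, hI⟩ := exists_inv t ht
  obtain ⟨k, hk, w, hw⟩ := hI.frame_two _ (fun x => by rw [hQ]; exact halt x)
    (fun u hu => eq_zero_of_B_left fun x => by rw [← hQ]; exact hu x) rfl
  rw [← rank_eq, hs] at hk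
  subst hk
  let e : Fin k ⊕ Fin k ≃ Fin (2 * k) := finSumFinEquiv.trans (finCongr (two_mul k).symm)
  have hw' : CfsgLib.Geometry.InvolutionFrame.Frame Q (N t) (fun i => e (Sum.swap (e.symm i))) 0 (fun i => w (e.symm i)) :=
    ⟨fun i => hw.mem _, fun i => hw.norm _, fun x => by
      rw [hw.form, ← Equiv.sum_comp e]
      simp⟩
  rw [card_centralizer Q hQ hI _ (fun i => by simp) _ hw' hs, show 2 * k / 2 = k by omega]
  congr 1
  rw [← CfsgLib.Symplectic.Order.card_Sp (m := k)]
  refine Nat.card_congr (Equiv.subtypeEquiv (Matrix.reindex e.symm e.symm) fun M => ?_)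
  rw [SymplecticGroup.mem_iff]
  simp only [← Matrix.ext_iff, Matrix.mul_apply, Matrix.transpose_apply, Matrix.reindex_apply, Matrix.submatrix_apply,
    Equiv.symm_symm]
  constructor
  · intro h a b
    have := h (e a) (e b)
    rw [← Equiv.sum_comp e] at this
    simp only [Equiv.symm_apply_apply, e.injective.eq_iff] at this
    have hJ : ∀ c d : Fin k ⊕ Fin k, Matrix.J (Fin k) F c d = if d = Sum.swap c then 1 else 0 := fun c d => by
      rcases c with c | c <;> rcases d with d | d <;>
        simp [Matrix.J, Matrix.one_apply, CharTwo.neg_eq, eq_comm]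
    simp only [hJ, mul_ite, mul_one, mul_zero]
    rw [← this, ← Equiv.sum_comp (Equiv.sumComm (Fin k) (Fin k))]
    simp only [Equiv.sumComm_apply]
    refine Fintype.sum_congr _ _ fun d => ?_
    rw [Finset.sum_eq_single (Sum.swap (Sum.swap d))]
    · rw [if_pos (Sum.swap_swap _).symm, Sum.swap_swap]
    · intro c _ hc
      rw [if_neg fun e0 => hc (by rw [e0, Sum.swap_swap])]
    · simp
  · intro h a b
    have hJ : ∀ c d : Fin k ⊕ Fin k, Matrix.J (Fin k) F c d = if d = Sum.swap c then 1 else 0 := fun c d => by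
      rcases c with c | c <;> rcases d with d | d <;>
        simp [Matrix.J, Matrix.one_apply, CharTwo.neg_eq, eq_comm]
    have := h (e.symm a) (e.symm b)
    simp only [hJ, mul_ite, mul_one, mul_zero, Equiv.apply_symm_apply] at this
    rw [← Equiv.sum_comp e]
    simp only [Equiv.symm_apply_apply]
    have e2 : (b = e (Sum.swap (e.symm a))) ↔ e.symm b = Sum.swap (e.symm a) := (Equiv.symm_apply_eq e).symm
    simp only [e2]
    rw [← this, ← Equiv.sum_comp (Equiv.sumComm (Fin k) (Fin k))]
    simp only [Equiv.sumComm_apply]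
    refine Fintype.sum_congr _ _ fun d => ?_
    rw [Finset.sum_eq_single (Sum.swap d) (fun c _ hc => by
      rw [if_neg fun e0 => hc (by rw [e0, Sum.swap_swap])]) (by simp), if_pos (Sum.swap_swap d).symm, Sum.swap_swap]

end CfsgLib.Symplectic.InvolutionCentralizer
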