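import Mathlib
import Cfsg.Agent.Lib.Symplectic.InvolutionCentralizer

/-!
Small facts for the centraliser formulas.
-/

set_option autoImplicit false
open scoped Matrix

namespace CfsgLib.Symplectic.InvolutionCards

open CfsgLib.Symplectic.Basic CfsgLib.Symplectic.InvolutionClasses

variable {F : Type*} [Field F] [Fintype F] [CharP F 2] {m : ℕ}

theorem rank_le {t : Sp m F} (ht : t * t = 1) : (t.1 - 1).rank ≤ m := by
  obtain ⟨Q, -, hI⟩ := exists_inv t ht
  have h2 := (N t).finrank_range_add_finrank_ker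
  have h3 := Submodule.finrank_mono (show LinearMap.range (N t) ≤ LinearMap.ker (N t) from
    fun a ha => LinearMap.mem_ker.2 (hI.kill ha))
  rw [Module.finrank_fintype_fun_eq_card, Fintype.card_sum, Fintype.card_fin] at h2
  rw [rank_eq]
  omega

theorem exp_eq {m s : ℕ} (h : s ≤ m) : s * (s + 1) / 2 + 2 * s * (m - s) = 2 * m * s - (3 * s ^ 2 - s) / 2 := by
  obtain ⟨r, hr⟩ := (Nat.even_mul_succ_self s).two_dvd
  obtain ⟨d, rfl⟩ := Nat.exists_eq_add_of_le h
  rw [Nat.add_sub_cancel_left, hr, Nat.mul_div_cancel_left _ two_pos]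
  have e1 : (3 * s ^ 2 - s) / 2 + r = 2 * (s * s) := by
    have hs2 : s ^ 2 = s * s := sq s
    have hle : s ≤ s * s := Nat.le_mul_self s
    rw [mul_add, mul_one] at hr
    rw [hs2]; omega
  have e2 : 2 * (s + d) * s = 2 * (s * s) + 2 * s * d := by ring
  rw [e2]; omega

theorem sq_of_rank_one {t : Sp m F} (h : (t.1 - 1).rank = 1) : t * t = 1 := by
  have hne : LinearMap.range (N t) ≠ ⊥ := fun e => by rw [rank_eq, e, finrank_bot] at h; exact zero_ne_one h
  obtain ⟨u, hu, hu0⟩ := (LinearMap.range (N t)).exists_mem_ne_zero_of_ne_bot hne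
  have hspan : Submodule.span F {u} = LinearMap.range (N t) := by
    refine Submodule.eq_of_le_of_finrank_eq ((Submodule.span_singleton_le_iff_mem _ _).2 hu) ?_
    rw [finrank_span_singleton hu0, ← rank_eq, h]
  have hfac : ∀ x, ∃ c : F, N t x = c • u := fun x => by
    obtain ⟨c, hc⟩ := Submodule.mem_span_singleton.1 (hspan.ge (⟨x, rfl⟩ : N t x ∈ LinearMap.range (N t)))
    exact ⟨c, hc.symm⟩
  obtain ⟨a, ha⟩ := hfac u
  have ht' : ∀ x, t.1 *ᵥ x = x + N t x := fun x => by rw [N_apply]; abel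
  obtain ⟨y, hy⟩ := exists_B_eq_one hu0
  obtain ⟨c, hc⟩ := hfac y
  have h1 := B_map t u y
  rw [ht', ht', ha, hc] at h1
  simp only [map_add, map_smul, LinearMap.add_apply, LinearMap.smul_apply, smul_eq_mul, B_self, hy, mul_zero, add_zero,
    mul_one] at h1
  have ha0 : a = 0 := by linear_combination h1
  refine ext_mulVec fun x => ?_
  obtain ⟨e, he⟩ := hfac x
  rw [mulVec_mul, ht' x, Matrix.mulVec_add, ht' x, ht' (N t x), he, map_smul, ha, ha0, zero_smul, smul_zero, add_zero,
    Submonoid.coe_one, Matrix.one_mulVec, add_assoc, CfsgLib.Geometry.InvolutionFrame.vec_add_self (F := F), add_zero]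

end CfsgLib.Symplectic.InvolutionCards
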