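import Mathlib
import Cfsg.Agent.Lib.Symplectic.Basic

/-! Centre of the symplectic group. -/
set_option autoImplicit false
open scoped Matrix

namespace CfsgLib.Symplectic.Centre
open CfsgLib.Symplectic.Basic

variable {F : Type*} [Field F] {m : ℕ}

/-- a scalar symplectic matrix -/
def sgn (a : rootsOfUnity 2 F) : Sp m F := ⟨((a : Fˣ) : F) • (1 : Matrix (Fin m ⊕ Fin m) (Fin m ⊕ Fin m) F), by
  rw [mem_iff]
  intro u v
  have ha : ((a : Fˣ) : F) * ((a : Fˣ) : F) = 1 := by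
    have h := congrArg Units.val ((mem_rootsOfUnity 2 (a : Fˣ)).1 a.2)
    rw [Units.val_pow_eq_pow_val, Units.val_one, sq] at h
    exact h
  simp only [Matrix.smul_mulVec, Matrix.one_mulVec, map_smul, LinearMap.smul_apply, smul_eq_mul]
  rw [← mul_assoc, ha, one_mul]⟩

theorem sgn_mulVec (a : rootsOfUnity 2 F) (v : V m F) : (sgn a).1 *ᵥ v = ((a : Fˣ) : F) • v := by
  show (((a : Fˣ) : F) • (1 : Matrix (Fin m ⊕ Fin m) (Fin m ⊕ Fin m) F)) *ᵥ v = _
  rw [Matrix.smul_mulVec, Matrix.one_mulVec]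

theorem sgn_mem_center (a : rootsOfUnity 2 F) : (sgn a : Sp m F) ∈ Subgroup.center (Sp m F) := by
  rw [Subgroup.mem_center_iff]
  intro g
  refine ext_mulVec fun v => ?_
  rw [mulVec_mul, mulVec_mul, sgn_mulVec, sgn_mulVec, Matrix.mulVec_smul]

theorem eigen_eq_sgn (hm : 1 ≤ m) {A : Sp m F} (h : ∀ w : V m F, ∃ a : F, A.1 *ᵥ w = a • w) :
    ∃ a : rootsOfUnity 2 F, A = sgn a := by
  obtain ⟨a, ha⟩ : ∃ a : F, ∀ w : V m F, A.1 *ᵥ w = a • w := by
    obtain ⟨a, ha⟩ := (Matrix.mulVecLin A.1).exists_eq_smul_id_of_forall_notLinearIndependent fun w => by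
      obtain ⟨a, ha⟩ := h w
      intro hli
      by_cases hw : w = 0
      · subst hw
        have := hli.ne_zero 0
        simp at this
      · rw [LinearIndependent.pair_iff' hw] at hli
        exact hli a (by simpa using ha.symm)
    exact ⟨a, fun w => by simpa using LinearMap.congr_fun ha w⟩
  let i : Fin m := ⟨0, hm⟩
  have h1 := B_map A (Pi.single (Sum.inr i) 1) (Pi.single (Sum.inl i) 1)
  rw [ha, ha, map_smul, map_smul, LinearMap.smul_apply, B_std_pair] at h1
  simp only [smul_eq_mul, mul_one] at h1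
  have ha0 : a ≠ 0 := fun h0 => by simp [h0] at h1
  refine ⟨⟨Units.mk0 a ha0, ?_⟩, ext_mulVec fun v => by rw [sgn_mulVec, ha]; rfl⟩
  rw [mem_rootsOfUnity]
  exact Units.ext (by simpa [sq] using h1)

theorem eigen_of_center {A : Sp m F} (hA : A ∈ Subgroup.center (Sp m F)) (w : V m F) :
    ∃ a : F, A.1 *ᵥ w = a • w := by
  by_cases hw : w = 0
  · exact ⟨0, by simp [hw]⟩
  have h : T (A.1 *ᵥ w) 1 = T w 1 := by
    rw [← conj_T, ← Subgroup.mem_center_iff.1 hA (T w 1), mul_inv_cancel_right]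
  obtain ⟨x, hx⟩ := exists_B_eq_one hw
  have h2 := congrArg (fun g : Sp m F => g.1 *ᵥ x) h
  simp only [T_apply, one_mul, add_right_inj] at h2
  rw [B_swap x w, hx] at h2
  set b := B x (A.1 *ᵥ w) with hb
  have hb0 : b ≠ 0 := fun h0 => hw (by rw [h0, zero_smul, neg_smul, one_smul] at h2; exact neg_eq_zero.1 h2.symm)
  refine ⟨-b⁻¹, ?_⟩
  rw [neg_smul, ← smul_neg, ← neg_one_smul F w, ← h2, smul_smul, inv_mul_cancel₀ hb0, one_smul]

theorem sgn_injective (hm : 1 ≤ m) : Function.Injective (sgn : rootsOfUnity 2 F → Sp m F) := fun a b h => by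
  have := congrArg (fun g : Sp m F => g.1 (Sum.inl ⟨0, hm⟩) (Sum.inl ⟨0, hm⟩)) h
  refine Subtype.ext (Units.ext ?_)
  simpa [sgn] using this

theorem card_center (hm : 1 ≤ m) : Nat.card (Subgroup.center (Sp m F)) = Nat.card (rootsOfUnity 2 F) :=
  (Nat.card_congr (Equiv.ofBijective (fun a => (⟨sgn a, sgn_mem_center a⟩ : Subgroup.center (Sp m F)))
    ⟨fun a b h => sgn_injective hm (congrArg Subtype.val h), fun A => by
      obtain ⟨a, ha⟩ := eigen_eq_sgn hm (eigen_of_center A.2)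
      exact ⟨a, Subtype.ext ha.symm⟩⟩)).symm

end CfsgLib.Symplectic.Centre
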