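import Mathlib
import Cfsg.Agent.Lib.Symplectic.Centre

/-! Perfectness, primitivity on points and simplicity of the symplectic group. -/
set_option autoImplicit false
open scoped Matrix Pointwise LinearAlgebra.Projectivization

namespace CfsgLib.Symplectic.Simple
open CfsgLib.Symplectic.Basic

variable {F : Type*} [Field F] {m : ℕ}

/-- class of a transvection in the abelianisation -/
noncomputable def χ (w : V m F) (c : F) : Abelianization (Sp m F) := Abelianization.of (T w c)

theorem χ_add (w : V m F) (c d : F) : χ w (c + d) = χ w c * χ w d := by rw [χ, T_add, map_mul]; rfl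

theorem χ_indep {w w' : V m F} (hw : w ≠ 0) (hw' : w' ≠ 0) (c : F) : χ w c = χ w' c := by
  obtain ⟨A, hA⟩ := exists_map_vec hw hw'
  rw [← hA, χ, χ, ← conj_T, map_mul, map_mul, map_inv, mul_comm (Abelianization.of A), mul_inv_cancel_right]

theorem triple_identity (x y z : V m F) (c : F) (hxy : B x y = 0) (hxz : B x z = 0) (hyz : B y z = 0) :
    T (x + y + z) c * T x c * T y c * T z c = T (x + y) c * T (x + z) c * T (y + z) c := by
  refine ext_mulVec fun v => ?_
  have hyx : B y x = 0 := by rw [B_swap, hxy, neg_zero]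
  have hzx : B z x = 0 := by rw [B_swap, hxz, neg_zero]
  have hzy : B z y = 0 := by rw [B_swap, hyz, neg_zero]
  simp only [mulVec_mul, T_apply, map_add, map_smul, LinearMap.add_apply, LinearMap.smul_apply, smul_eq_mul, B_self,
    hxy, hxz, hyz, hyx, hzx, hzy, mul_zero, add_zero, smul_add, add_smul, mul_add]
  abel

theorem pair_identity (x y : V m F) (c : F) (hxy : B x y = 0) :
    T (x + y) c * T (x - y) c = T x (2 * c) * T y (2 * c) := by
  refine ext_mulVec fun v => ?_
  have hyx : B y x = 0 := by rw [B_swap, hxy, neg_zero]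
  simp only [mulVec_mul, T_apply, map_add, map_sub, map_smul, LinearMap.add_apply, LinearMap.sub_apply,
    LinearMap.smul_apply, smul_eq_mul, B_self, hxy, hyx, mul_zero, add_zero, sub_zero, smul_add, smul_sub, add_smul,
    sub_smul, mul_add, mul_sub, two_mul, add_mul]
  abel

theorem commutator_eq_top_of_chi (h : ∀ (w : V m F) (c : F), χ w c = 1) : commutator (Sp m F) = ⊤ := by
  rw [eq_top_iff, ← closure_T_eq_top, Subgroup.closure_le]
  rintro _ ⟨w, c, rfl⟩
  rw [SetLike.mem_coe, ← Abelianization.ker_of]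
  exact h w c

theorem chi_one_of_ne (h : ∀ (w : V m F), w ≠ 0 → ∀ c : F, χ w c = 1) (w : V m F) (c : F) : χ w c = 1 := by
  by_cases hw : w = 0
  · have : T (0 : V m F) c = 1 := ext_mulVec fun x => by simp [T_apply]
    rw [χ, hw, this, map_one]
  · exact h w hw c

theorem chi_one_scale {a : F} (ha : a ≠ 0) (ha2 : a ^ 2 ≠ 1) (w : V m F) (hw : w ≠ 0) (c : F) : χ w c = 1 := by
  have h1 : ∀ d, χ w d = χ w (a ^ 2 * d) := fun d => by
    rw [χ_indep hw (smul_ne_zero ha hw) d, χ, χ, T_smul]
  have h2 := h1 (c / (a ^ 2 - 1))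
  rw [show a ^ 2 * (c / (a ^ 2 - 1)) = c + c / (a ^ 2 - 1) by field_simp [sub_ne_zero.2 ha2]; ring, χ_add] at h2
  exact right_eq_mul.1 h2

theorem chi_one_three (hm : 3 ≤ m) (w : V m F) (hw : w ≠ 0) (c : F) : χ w c = 1 := by
  let x : V m F := Pi.single (Sum.inl ⟨0, by omega⟩) 1
  let y : V m F := Pi.single (Sum.inl ⟨1, by omega⟩) 1
  let z : V m F := Pi.single (Sum.inl ⟨2, by omega⟩) 1
  have h := congrArg Abelianization.of (triple_identity x y z c (by simp [x, y, B_single_inl]) (by simp [x, z, B_single_inl])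
    (by simp [y, z, B_single_inl]))
  simp only [map_mul] at h
  have e : ∀ {u : V m F}, (∃ k, u k ≠ 0) → Abelianization.of (T u c) = χ w c := fun {u} hu => by
    obtain ⟨k, hk⟩ := hu
    exact χ_indep (fun h0 => hk (congrFun h0 k)) hw c
  rw [e ⟨Sum.inl ⟨0, by omega⟩, by simp [x, y, z]⟩, e (u := x) ⟨Sum.inl ⟨0, by omega⟩, by simp [x]⟩,
    e (u := y) ⟨Sum.inl ⟨1, by omega⟩, by simp [y]⟩, e (u := z) ⟨Sum.inl ⟨2, by omega⟩, by simp [z]⟩,
    e (u := x + y) ⟨Sum.inl ⟨0, by omega⟩, by simp [x, y]⟩,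
    e (u := x + z) ⟨Sum.inl ⟨0, by omega⟩, by simp [x, z]⟩,
    e (u := y + z) ⟨Sum.inl ⟨1, by omega⟩, by simp [y, z]⟩] at h
  exact mul_eq_left.1 h

theorem chi_one_two (hm : 2 ≤ m) (h2 : (2 : F) ≠ 0) (w : V m F) (hw : w ≠ 0) (c : F) : χ w c = 1 := by
  haveI : NeZero (2 : F) := ⟨h2⟩
  let x : V m F := Pi.single (Sum.inl ⟨0, by omega⟩) 1
  let y : V m F := Pi.single (Sum.inl ⟨1, by omega⟩) 1
  have h := congrArg Abelianization.of (pair_identity x y (c / 2) (by simp [x, y, B_single_inl]))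
  rw [show (2 : F) * (c / 2) = c by field_simp] at h
  simp only [map_mul] at h
  have e : ∀ {u : V m F} (d : F), (∃ k, u k ≠ 0) → Abelianization.of (T u d) = χ w d := fun {u} d hu => by
    obtain ⟨k, hk⟩ := hu
    exact χ_indep (fun h0 => hk (congrFun h0 k)) hw d
  rw [e (u := x + y) _ ⟨Sum.inl ⟨0, by omega⟩, by simp [x, y]⟩,
    e (u := x - y) _ ⟨Sum.inl ⟨0, by omega⟩, by simp [x, y]⟩,
    e (u := x) _ ⟨Sum.inl ⟨0, by omega⟩, by simp [x]⟩, e (u := y) _ ⟨Sum.inl ⟨1, by omega⟩, by simp [y]⟩,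
    ← χ_add, add_halves] at h
  exact right_eq_mul.1 h

theorem exists_sq_ne_one [Fintype F] (hq : 4 ≤ Fintype.card F) : ∃ a : F, a ≠ 0 ∧ a ^ 2 ≠ 1 := by
  classical
  by_contra hc
  push Not at hc
  have hsub : (Finset.univ : Finset F) ⊆ {0, 1, -1} := fun a _ => by
    by_cases h : a = 0
    · simp [h]
    · rcases sq_eq_one_iff.1 (hc a h) with h' | h' <;> simp [h']
  have := (Finset.card_le_card hsub).trans Finset.card_le_three
  rw [Finset.card_univ] at this
  omega

theorem commutator_eq_top [Fintype F] (h : 3 ≤ m ∨ (m = 2 ∧ 3 ≤ Fintype.card F) ∨ 4 ≤ Fintype.card F) :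
    commutator (Sp m F) = ⊤ := by
  refine commutator_eq_top_of_chi (chi_one_of_ne ?_)
  rcases h with h | ⟨hm, hq⟩ | h
  · exact chi_one_three h
  · by_cases h4 : 4 ≤ Fintype.card F
    · obtain ⟨a, ha, ha2⟩ := exists_sq_ne_one h4
      exact chi_one_scale ha ha2
    · refine chi_one_two (by omega) ?_
      intro h2
      haveI : CharP F 2 := CharTwo.of_one_ne_zero_of_two_eq_zero one_ne_zero h2
      obtain ⟨n, -, hn⟩ := FiniteField.card F 2
      have : 2 ∣ Fintype.card F := hn ▸ dvd_pow_self 2 n.ne_zero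
      omega
  · obtain ⟨a, ha, ha2⟩ := exists_sq_ne_one h
    exact chi_one_scale ha ha2

/-! ### the action on points -/

/-- the identification with `spGL` -/
noncomputable def toSpGL : Sp m F ≃* ↥(Cfsg.spGL m F) where
  toFun A := ⟨(Matrix.symplecticGroup (Fin m) F).subtype.toHomUnits A, fun u v => by
    rw [← B_eq, ← B_eq]; exact B_map A u v⟩
  invFun g := ⟨g.1.1, (mem_iff _).2 fun u v => by rw [B_eq, B_eq]; exact g.2 u v⟩
  left_inv A := rfl
  right_inv g := Subtype.ext (Units.ext rfl)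
  map_mul' A C := Subtype.ext (map_mul _ A C)

theorem toSpGL_smul (A : Sp m F) {v : V m F} (hv : v ≠ 0) :
    toSpGL A • Projectivization.mk F v hv = Projectivization.mk F (A.1 *ᵥ v) (mulVec_ne_zero A hv) := rfl

theorem exists_dual_pair {u w : V m F} (hli : ∀ a : F, a • u ≠ w) (hu : u ≠ 0) :
    ∃ v, B u v = 1 ∧ B w v = 0 := by
  obtain ⟨v1, hv1⟩ := exists_B_eq_one hu
  by_contra hc
  push Not at hc
  have hw0 : w - B w v1 • u = 0 := eq_zero_of_B_left fun x => by
    rw [map_sub, map_smul, LinearMap.sub_apply, LinearMap.smul_apply, smul_eq_mul]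
    by_contra hx
    -- correct v1 along x
    set d := B w x - B w v1 * B u x
    have hy1 : B u (x - B u x • v1) = 0 := by rw [map_sub, map_smul, hv1, smul_eq_mul, mul_one, sub_self]
    have hy2 : B w (x - B u x • v1) = d := by rw [map_sub, map_smul, smul_eq_mul]; ring
    refine hc (v1 - (B w v1 / d) • (x - B u x • v1)) ?_ ?_
    · rw [map_sub, map_smul, hy1, smul_zero, sub_zero, hv1]
    · rw [map_sub, map_smul, hy2, smul_eq_mul, div_mul_cancel₀ _ hx, sub_self]
  exact hli (B w v1) (sub_eq_zero.1 hw0).symm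

theorem nondeg_pair {u v : V m F} (h : B u v = 1) : NondegOrth ({u, v} : Set (V m F)) := by
  intro x hx hx0
  obtain ⟨z, hz⟩ := exists_B_eq_one hx0
  have hxu : B x u = 0 := by rw [B_swap, hx u (Set.mem_insert _ _), neg_zero]
  have hxv : B x v = 0 := by rw [B_swap, hx v (Set.mem_insert_of_mem _ rfl), neg_zero]
  have hvu : B v u = -1 := by rw [B_swap, h]
  refine ⟨z - B u z • v + B v z • u, ?_, ?_⟩
  · rintro s (rfl | rfl)
    · simp only [map_add, map_sub, map_smul, smul_eq_mul, h, B_self]; ring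
    · simp only [map_add, map_sub, map_smul, smul_eq_mul, B_self, hvu]; ring
  · simp only [map_add, map_sub, map_smul, smul_eq_mul, hxu, hxv, hz]
    simp

theorem trans_perp {u w w' : V m F} (hu : u ≠ 0) (h : B u w = 0) (h' : B u w' = 0)
    (hli : ∀ a : F, a • u ≠ w) (hli' : ∀ a : F, a • u ≠ w') : ∃ A : Sp m F, A.1 *ᵥ u = u ∧ A.1 *ᵥ w = w' := by
  obtain ⟨v, hv, hwv⟩ := exists_dual_pair hli hu
  obtain ⟨v', hv', hwv'⟩ := exists_dual_pair hli' hu
  obtain ⟨A, hAu, hAv⟩ := exists_map_pair hv hv'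
  have hw0 : w ≠ 0 := fun h0 => hli 0 (by rw [zero_smul, h0])
  have hw0' : w' ≠ 0 := fun h0 => hli' 0 (by rw [zero_smul, h0])
  obtain ⟨C, hC, hCw⟩ := trans_vec (nondeg_pair hv') (u := A.1 *ᵥ w) (v := w') (by
      rintro s (rfl | rfl)
      · conv_lhs => rw [← hAu]
        rw [B_map, h]
      · conv_lhs => rw [← hAv]
        rw [B_map, B_swap, hwv, neg_zero]) (by
      rintro s (rfl | rfl)
      · exact h'
      · rw [B_swap, hwv', neg_zero]) (mulVec_ne_zero A hw0) hw0'
  refine ⟨C * A, ?_, by rw [mulVec_mul, hCw]⟩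
  rw [mulVec_mul, hAu, TS_le_fixer _ hC u (Set.mem_insert _ _)]

theorem block_step {Bk : Set (ℙ F (V m F))} (hB : MulAction.IsBlock ↥(Cfsg.spGL m F) Bk) (A : Sp m F)
    {p : ℙ F (V m F)} (hp : p ∈ Bk) (hp' : toSpGL A • p ∈ Bk) {q : ℙ F (V m F)} (hq : q ∈ Bk) :
    toSpGL A • q ∈ Bk := by
  by_cases hne : toSpGL A • Bk = (1 : ↥(Cfsg.spGL m F)) • Bk
  · rw [← one_smul ↥(Cfsg.spGL m F) Bk, ← hne]; exact Set.smul_mem_smul_set hq
  · exact absurd (Set.smul_mem_smul_set hp) (Set.disjoint_right.1 (hB hne) (by rwa [one_smul]))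

instance isPretransitive : MulAction.IsPretransitive ↥(Cfsg.spGL m F) (ℙ F (V m F)) := ⟨fun p q => by
  induction p using Projectivization.ind with | _ u hu =>
  induction q using Projectivization.ind with | _ v hv =>
  obtain ⟨A, hA⟩ := exists_map_vec hu hv
  exact ⟨toSpGL A, by rw [toSpGL_smul]; simp_rw [hA]⟩⟩

theorem block_eq_univ {Bk : Set (ℙ F (V m F))} (hB : MulAction.IsBlock ↥(Cfsg.spGL m F) Bk)
    {u w : V m F} (hu : u ≠ 0) (hw : w ≠ 0) (hp : Projectivization.mk F u hu ∈ Bk)
    (hq : Projectivization.mk F w hw ∈ Bk) (hne : ∀ a : F, a • u ≠ w) : Bk = Set.univ := by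
  rw [Set.eq_univ_iff_forall]
  intro r
  induction r using Projectivization.ind with | _ z hz =>
  by_cases huw : B u w = 0
  · -- perp case
    have step : ∀ {x y : V m F} (hx : x ≠ 0) (hy : y ≠ 0), Projectivization.mk F x hx ∈ Bk → B x y = 0 →
        (∀ a : F, a • x ≠ y) → Projectivization.mk F y hy ∈ Bk := by
      intro x y hx hy hxB hxy hxy'
      obtain ⟨A, hA⟩ := exists_map_vec hu hx
      have h1 : toSpGL A • Projectivization.mk F w hw ∈ Bk :=
        block_step hB A hp (by rw [toSpGL_smul]; simp_rw [hA]; exact hxB) hq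
      obtain ⟨C, hCx, hCy⟩ := trans_perp hx (by rw [← hA, B_map, huw]) hxy (w := A.1 *ᵥ w)
        (fun a ha => hne a (by
          have := congrArg (fun t => (A⁻¹).1 *ᵥ t) ha
          simp only [← hA, Matrix.mulVec_smul, mulVec_inv_cancel] at this
          exact this)) hxy'
      have h2 := block_step hB C hxB (by rw [toSpGL_smul]; simp_rw [hCx]; exact hxB) h1
      rw [toSpGL_smul A hw, toSpGL_smul] at h2
      simp_rw [hCy] at h2
      exact h2
    by_cases hpar : ∃ a : F, a • u = z
    · obtain ⟨a, ha⟩ := hpar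
      convert hp using 1
      rw [Projectivization.mk_eq_mk_iff']
      exact ⟨a, ha⟩
    push Not at hpar
    by_cases huz : B u z = 0
    · exact step hu hz hp huz hpar
    · obtain ⟨r, hr, hur⟩ : ∃ r, r = (B u z)⁻¹ • z ∧ B u r = 1 :=
        ⟨_, rfl, by rw [map_smul, smul_eq_mul, inv_mul_cancel₀ huz]⟩
      set y := w + B r w • u with hy
      have huy : B u y = 0 := by rw [hy, map_add, map_smul, huw, B_self, smul_zero, add_zero]
      have hry : B r y = 0 := by rw [hy, map_add, map_smul, B_swap r u, hur, smul_eq_mul]; ring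
      have huy' : ∀ a : F, a • u ≠ y := fun a ha => hne (a - B r w) (by rw [sub_smul, ha, hy]; abel)
      have hy0 : y ≠ 0 := fun h0 => huy' 0 (by rw [zero_smul, h0])
      have hyB := step hu hy0 hp huy huy'
      refine step hy0 hz hyB ?_ fun a ha => ?_
      · have : B y r = 0 := by rw [B_swap, hry, neg_zero]
        rw [hr, map_smul, smul_eq_mul, mul_eq_zero] at this
        exact this.resolve_left (inv_ne_zero huz)
      · apply huz; rw [← ha, map_smul, huy, smul_zero]
  · -- non-perp case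
    have step : ∀ {x y : V m F} (hx : x ≠ 0) (hy : y ≠ 0), Projectivization.mk F x hx ∈ Bk → B x y ≠ 0 →
        Projectivization.mk F y hy ∈ Bk := by
      intro x y hx hy hxB hxy
      obtain ⟨A, hA⟩ := exists_map_vec hu hx
      have h1 : toSpGL A • Projectivization.mk F w hw ∈ Bk :=
        block_step hB A hp (by rw [toSpGL_smul]; simp_rw [hA]; exact hxB) hq
      obtain ⟨C, hCx, hCy⟩ := exists_map_pair (u := x) (v := (B u w)⁻¹ • (A.1 *ᵥ w)) (u' := x) (v' := (B x y)⁻¹ • y)
        (by rw [map_smul, ← hA, B_map, smul_eq_mul, inv_mul_cancel₀ huw])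
        (by rw [map_smul, smul_eq_mul, inv_mul_cancel₀ hxy])
      have h2 := block_step hB C hxB (by rw [toSpGL_smul]; simp_rw [hCx]; exact hxB) h1
      rw [toSpGL_smul A hw, toSpGL_smul] at h2
      convert h2 using 1
      rw [Projectivization.mk_eq_mk_iff']
      refine ⟨B x y / B u w, ?_⟩
      have h3 := congrArg (fun t => B x y • t) hCy
      rw [Matrix.mulVec_smul, smul_smul, smul_smul, mul_inv_cancel₀ hxy, one_smul] at h3
      rw [div_eq_mul_inv, h3]
    obtain ⟨y, -, hy1, hy2⟩ := exists_nonperp_two (S := (∅ : Set (V m F))) nondeg_empty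
      (fun s hs => absurd hs (Set.notMem_empty s)) (fun s hs => absurd hs (Set.notMem_empty s)) hu hz
    have hy0 : y ≠ 0 := by rintro rfl; simp at hy1
    exact step hy0 hz (step hu hy0 hp hy1) hy2

instance isPreprimitive : MulAction.IsPreprimitive ↥(Cfsg.spGL m F) (ℙ F (V m F)) where
  isTrivialBlock_of_isBlock {Bk} hB := by
    by_cases hs : Bk.Subsingleton
    · exact Or.inl hs
    refine Or.inr ?_
    obtain ⟨p, hp, q, hq, hne⟩ := Set.not_subsingleton_iff.1 hs
    induction p using Projectivization.ind with | _ u hu =>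
    induction q using Projectivization.ind with | _ w hw =>
    exact block_eq_univ hB hu hw hp hq fun a ha => hne ((Projectivization.mk_eq_mk_iff' F w u hw hu).2 ⟨a, ha⟩).symm

/-- transvections along a line as a hom -/
noncomputable def tline (w : V m F) : Multiplicative F →* ↥(Cfsg.spGL m F) where
  toFun c := toSpGL (T w (Multiplicative.toAdd c))
  map_one' := by rw [toAdd_one, T_zero, map_one]
  map_mul' c d := by rw [toAdd_mul, T_add, map_mul]

theorem tline_smul_range (w : V m F) {a : F} (ha : a ≠ 0) : (tline (a • w)).range = (tline w).range := by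
  ext g
  constructor
  · rintro ⟨c, rfl⟩
    exact ⟨Multiplicative.ofAdd (a ^ 2 * Multiplicative.toAdd c), by
      show toSpGL (T w (a ^ 2 * Multiplicative.toAdd c)) = toSpGL (T (a • w) (Multiplicative.toAdd c)); rw [T_smul]⟩
  · rintro ⟨c, rfl⟩
    exact ⟨Multiplicative.ofAdd ((a ^ 2)⁻¹ * Multiplicative.toAdd c), by
      show toSpGL (T (a • w) ((a ^ 2)⁻¹ * Multiplicative.toAdd c)) = toSpGL (T w (Multiplicative.toAdd c))
      rw [T_smul, ← mul_assoc, mul_inv_cancel₀ (pow_ne_zero 2 ha), one_mul]⟩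

theorem root_mk (w : V m F) (hw : w ≠ 0) :
    (tline (Projectivization.mk F w hw).rep).range = (tline w).range := by
  obtain ⟨a, ha⟩ := Projectivization.exists_smul_eq_mk_rep F w hw
  rw [← ha]
  exact tline_smul_range w a.ne_zero

/-- the Iwasawa structure on points -/
noncomputable def iwasawa : MulAction.IwasawaStructure ↥(Cfsg.spGL m F) (ℙ F (V m F)) where
  T p := (tline p.rep).range
  is_comm p := ⟨⟨by
    rintro ⟨_, c, rfl⟩ ⟨_, d, rfl⟩
    refine Subtype.ext ?_
    show tline p.rep c * tline p.rep d = tline p.rep d * tline p.rep c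
    rw [← map_mul, mul_comm, map_mul]⟩⟩
  is_conj g p := by
    obtain ⟨A, rfl⟩ := toSpGL.surjective g
    induction p using Projectivization.ind with | _ w hw =>
    rw [toSpGL_smul, root_mk, root_mk]
    ext g
    rw [Subgroup.mem_pointwise_smul_iff_inv_smul_mem, MulAut.smul_def, MulAut.inv_apply, MulAut.conj_symm_apply]
    constructor
    · rintro ⟨c, rfl⟩
      refine ⟨c, ?_⟩
      show toSpGL (T w _) = (toSpGL A)⁻¹ * toSpGL (T (A.1 *ᵥ w) _) * toSpGL A
      rw [← conj_T, map_mul, map_mul, map_inv]; group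
    · rintro ⟨c, hc⟩
      refine ⟨c, ?_⟩
      show toSpGL (T (A.1 *ᵥ w) _) = g
      rw [← conj_T, map_mul, map_mul, map_inv, show toSpGL (T w (Multiplicative.toAdd c)) = (toSpGL A)⁻¹ * g * toSpGL A from hc]
      group
  is_generator := by
    rw [eq_top_iff, ← Subgroup.map_top_of_surjective (toSpGL : Sp m F ≃* _).toMonoidHom toSpGL.surjective,
      ← closure_T_eq_top, Subgroup.map_le_iff_le_comap, Subgroup.closure_le]
    rintro _ ⟨w, c, rfl⟩
    rw [SetLike.mem_coe, Subgroup.mem_comap]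
    change toSpGL (T w c) ∈ (⨆ p : ℙ F (V m F), (tline p.rep).range)
    by_cases hw : w = 0
    · have : T (0 : V m F) c = 1 := ext_mulVec fun x => by simp [T_apply]
      rw [hw, this, map_one]; exact one_mem _
    · exact Subgroup.mem_iSup_of_mem (Projectivization.mk F w hw) (by rw [root_mk]; exact ⟨Multiplicative.ofAdd c, rfl⟩)

theorem normal_le_center_or_top (hm : 1 ≤ m) (hperf : commutator (Sp m F) = ⊤) (N : Subgroup (Sp m F)) [hN : N.Normal] :
    N ≤ Subgroup.center (Sp m F) ∨ N = ⊤ := by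
  let N' := N.map (toSpGL : Sp m F ≃* _).toMonoidHom
  haveI : N'.Normal := hN.map _ toSpGL.surjective
  by_cases hfix : MulAction.fixedPoints N' (ℙ F (V m F)) = Set.univ
  · refine Or.inl fun A hA => ?_
    obtain ⟨a, rfl⟩ := CfsgLib.Symplectic.Centre.eigen_eq_sgn (F := F) (A := A) hm fun w => by
      by_cases hw : w = 0
      · exact ⟨0, by simp [hw]⟩
      have h1 := (Set.eq_univ_iff_forall.1 hfix (Projectivization.mk F w hw)) ⟨toSpGL A, ⟨A, hA, rfl⟩⟩
      replace h1 : toSpGL A • Projectivization.mk F w hw = Projectivization.mk F w hw := h1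
      rw [toSpGL_smul, Projectivization.mk_eq_mk_iff'] at h1
      obtain ⟨a, ha⟩ := h1
      exact ⟨a, ha.symm⟩
    exact CfsgLib.Symplectic.Centre.sgn_mem_center a
  · refine Or.inr (eq_top_iff.2 ?_)
    have h := iwasawa.commutator_le N' hfix
    rw [← hperf, commutator_def]
    intro x hx
    have h2 : toSpGL x ∈ commutator ↥(Cfsg.spGL m F) := by
      rw [commutator_def, ← Subgroup.map_top_of_surjective (toSpGL : Sp m F ≃* _).toMonoidHom toSpGL.surjective,
        ← Subgroup.map_commutator]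
      exact ⟨x, hx, rfl⟩
    obtain ⟨y, hy, hxy⟩ := h h2
    exact toSpGL.injective hxy ▸ hy

theorem isSimpleGroup_PSp [Fintype F] (hm : 2 ≤ m) (h : m = 2 → 3 ≤ Fintype.card F) :
    IsSimpleGroup (Cfsg.PSp m F) := by
  have hperf := commutator_eq_top (F := F) (m := m) (by
    rcases Nat.lt_or_ge m 3 with h3 | h3
    · exact Or.inr (Or.inl ⟨by omega, h (by omega)⟩)
    · exact Or.inl h3)
  have hne : Subgroup.center (Sp m F) ≠ ⊤ := by
    intro htop
    obtain ⟨a, ha⟩ := CfsgLib.Symplectic.Centre.eigen_of_center (A := T (Pi.single (Sum.inl ⟨0, by omega⟩) (1 : F)) 1)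
      (htop ▸ Subgroup.mem_top _) (Pi.single (Sum.inr ⟨0, by omega⟩) 1)
    rw [T_apply, B_single_inl] at ha
    have := congrFun ha (Sum.inl ⟨0, by omega⟩)
    simp at this
  haveI : Nontrivial (Cfsg.PSp m F) := QuotientGroup.nontrivial_iff.2 hne
  refine ⟨fun N hN => ?_⟩
  rcases normal_le_center_or_top (by omega) hperf (N.comap (QuotientGroup.mk' _)) with h1 | h1
  · refine Or.inl ?_
    rw [← Subgroup.map_comap_eq_self_of_surjective (QuotientGroup.mk'_surjective _) N, Subgroup.map_eq_bot_iff,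
      QuotientGroup.ker_mk']
    exact h1
  · refine Or.inr ?_
    rw [← Subgroup.map_comap_eq_self_of_surjective (QuotientGroup.mk'_surjective _) N, h1,
      Subgroup.map_top_of_surjective _ (QuotientGroup.mk'_surjective _)]

end CfsgLib.Symplectic.Simple
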