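import Mathlib
import Cfsg.Agent.Lib.Symplectic.Basic

/-!
Embedding form-preserving groups over an extension field into symplectic groups.
-/

set_option autoImplicit false
open scoped Matrix

namespace CfsgLib.Symplectic.Embed

open CfsgLib.Symplectic.Basic

variable {K F : Type*} [Field K] [Field F] [Algebra F K] {ι : Type} [Fintype ι] [DecidableEq ι] {n : ℕ}

theorem exists_hom {G : Type*} [Group G] (toMat : G →* Matrix ι ι K) (hinj : Function.Injective toMat)
    (E : (ι → K) ≃ₗ[F] V n F)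
    (h : ∀ g u v, B (E (toMat g *ᵥ u)) (E (toMat g *ᵥ v)) = B (E u) (E v)) :
    ∃ φ : G →* Sp n F, Function.Injective φ := by
  let L : G → (V n F →ₗ[F] V n F) := fun g =>
    E.toLinearMap ∘ₗ ((Matrix.mulVecLin (toMat g)).restrictScalars F) ∘ₗ E.symm.toLinearMap
  have hL : ∀ g x, L g x = E (toMat g *ᵥ E.symm x) := fun g x => rfl
  let φ : G → Sp n F := fun g => ⟨LinearMap.toMatrix' (L g), (mem_iff _).2 fun u v => by
    rw [LinearMap.toMatrix'_mulVec, LinearMap.toMatrix'_mulVec, hL, hL, h]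
    simp⟩
  have hφ : ∀ g x, (φ g).1 *ᵥ x = E (toMat g *ᵥ E.symm x) := fun g x => by
    show LinearMap.toMatrix' (L g) *ᵥ x = _
    rw [LinearMap.toMatrix'_mulVec, hL]
  refine ⟨{ toFun := φ, map_one' := ext_mulVec fun x => ?_, map_mul' := fun a b => ext_mulVec fun x => ?_ }, fun a b hab => ?_⟩
  · rw [hφ, map_one, Matrix.one_mulVec, E.apply_symm_apply, Submonoid.coe_one, Matrix.one_mulVec]
  · rw [hφ, mulVec_mul, hφ, hφ, map_mul, ← Matrix.mulVec_mulVec, E.symm_apply_apply]
  · refine hinj (Matrix.ext_iff_mulVec.2 fun u => E.injective ?_)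
    have := congrArg (fun g : Sp n F => g.1 *ᵥ E u) hab
    simp only [MonoidHom.coe_mk, OneHom.coe_mk, hφ, E.symm_apply_apply] at this
    exact this

end CfsgLib.Symplectic.Embed
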