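import Mathlib
import Cfsg.Prelude.Def_GeometricClasses
import Cfsg.Agent.Lib.Geometry.InvolutionOmegaCount
import Cfsg.Agent.Lib.QuadClass.Witt
import Cfsg.Agent.Lib.Geometry.FixedPointFree

/-!
The quadratic forms polarising to the symplectic form in characteristic two.
-/

set_option autoImplicit false
open scoped Matrix

namespace CfsgLib.Symplectic.FormTypes

open CfsgLib.Symplectic.Basic CfsgLib.Orth.Models CfsgLib.QuadClass
open CfsgLib.Geometry.InvolutionOmegaCentralizer CfsgLib.Geometry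

variable {F : Type*} [Field F] [Fintype F] [CharP F 2] {m : ℕ}

/-- The form translated by a vector. -/
noncomputable def P (a : V m F) : QuadraticForm F (V m F) := plusQ F m + QuadraticMap.linMulLin (B a) (B a)

omit [Fintype F] [CharP F 2] in
theorem P_apply (a x : V m F) : P a x = plusQ F m x + B a x * B a x := by
  simp [P, QuadraticMap.linMulLin_apply]

omit [Fintype F] in
theorem swap (x y : V m F) : B x y = B y x := by rw [B_swap, CharTwo.neg_eq]

omit [Fintype F] in
theorem polar_P (a u v : V m F) : QuadraticMap.polar (⇑(P a)) u v = B u v := by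
  simp only [QuadraticMap.polar, P_apply, Q_add, map_add]
  linear_combination CharTwo.add_self_eq_zero (B a u * B a v)

omit [Fintype F] in
theorem nondeg_P (a : V m F) : (QuadraticMap.polarBilin (P a)).Nondegenerate :=
  ⟨fun x hx => eq_zero_of_B_left fun y => by rw [← polar_P a]; exact hx y,
   fun y hy => eq_zero_of_B_left fun x => by rw [swap, ← polar_P a]; exact hy x⟩

omit [Fintype F] in
theorem P_inj {a b : V m F} (h : ∀ x, P a x = P b x) : a = b :=
  sub_eq_zero.1 (eq_zero_of_B_left fun x => by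
    have := h x
    rw [P_apply, P_apply, add_right_inj] at this
    rw [map_sub, LinearMap.sub_apply, sub_eq_zero]
    rcases mul_self_eq_mul_self_iff.1 this with e | e
    · exact e
    · rwa [CharTwo.neg_eq] at e)

theorem exists_P (f : V m F → F) (hs : ∀ (c : F) x, f (c • x) = c ^ 2 * f x)
    (hp : ∀ u v, QuadraticMap.polar f u v = B u v) : ∃ a : V m F, ∀ x, f x = P a x := by
  haveI : Fact (Nat.Prime 2) := ⟨Nat.prime_two⟩
  set s := (frobeniusEquiv F 2).symm with hs'
  let δ : V m F → F := fun x => f x + plusQ F m x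
  have hδa : ∀ x y, δ (x + y) = δ x + δ y := fun x y => by
    have h1 := hp x y
    simp only [QuadraticMap.polar] at h1
    simp only [δ, Q_add]
    linear_combination h1 + CharTwo.add_self_eq_zero (B x y)
  let φ : V m F →ₗ[F] F :=
    { toFun := fun x => s (δ x)
      map_add' := fun x y => by rw [hδa, map_add]
      map_smul' := fun c x => by
        rw [show δ (c • x) = c ^ 2 * δ x by simp only [δ, hs, QuadraticMap.map_smul, smul_eq_mul]; ring, map_mul,
          RingHom.id_apply, smul_eq_mul]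
        congr 1
        rw [hs', RingEquiv.symm_apply_eq, frobeniusEquiv_def] }
  obtain ⟨a, ha⟩ := CfsgLib.Forms.WittAlt.exists_vec (B (F := F) (m := m)) CfsgLib.Symplectic.IsoTuples.B_nondeg φ
  refine ⟨a, fun x => ?_⟩
  rw [P_apply, swap a x, ha]
  have := (frobeniusEquiv F 2).apply_symm_apply (δ x)
  rw [frobeniusEquiv_def, sq] at this
  show f x = plusQ F m x + s (δ x) * s (δ x)
  rw [this]
  simp only [δ]
  linear_combination -CharTwo.add_self_eq_zero (plusQ F m x)

/-- An isometry between translated forms is symplectic. -/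
theorem exists_sp {a b : V m F} (h : Equiv' (P a) (P b)) : ∃ g : Sp m F, ∀ x, P b (g.1 *ᵥ x) = P a x := by
  obtain ⟨e, he⟩ := h
  refine ⟨⟨LinearMap.toMatrix' e.toLinearMap, (mem_iff _).2 fun u v => ?_⟩, fun x => ?_⟩
  · rw [LinearMap.toMatrix'_mulVec, LinearMap.toMatrix'_mulVec, ← polar_P b, ← polar_P a]
    simp only [QuadraticMap.polar, LinearEquiv.coe_coe, ← map_add, he]
  · show P b (LinearMap.toMatrix' e.toLinearMap *ᵥ x) = _
    rw [LinearMap.toMatrix'_mulVec]; exact he x

theorem plus_iff {k : ℕ} (a : V (k + 1) F) : Equiv' (P a) (plusQ F (k + 1)) ↔ plusQ F (k + 1) a ∈ AS F := by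
  constructor
  · intro h
    obtain ⟨U, hU, hd⟩ := (has_max_singular_iff k (nondeg_of _ (nondeg_P a))
      (by rw [Module.finrank_fintype_fun_eq_card, Fintype.card_sum, Fintype.card_fin]; omega)).1 h
    refine mem_AS_of_translate a U hd fun x hx => ?_
    have := hU x hx
    rw [P_apply, CharTwo.add_eq_zero] at this
    exact this
  · intro h
    obtain ⟨l, hl⟩ := exists_lambda h
    have hTT : ∀ x, (T a l).1 *ᵥ ((T a l).1 *ᵥ x) = x := fun x => by
      rw [T_apply, T_apply, map_add, LinearMap.add_apply, map_smul, LinearMap.smul_apply, B_self, smul_zero, add_zero,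
        add_assoc, CfsgLib.Geometry.InvolutionFrame.vec_add_self (F := F), add_zero]
    refine ⟨LinearEquiv.ofLinear (T a l).1.mulVecLin (T a l).1.mulVecLin (LinearMap.ext hTT) (LinearMap.ext hTT), fun x => ?_⟩
    show plusQ F (k + 1) ((T a l).1 *ᵥ x) = _
    rw [T_apply, Q_add_smul, P_apply, swap a x]
    linear_combination (B x a * B x a) * hl

theorem equiv_iff {k : ℕ} (a b : V (k + 1) F) :
    Equiv' (P a) (P b) ↔ (plusQ F (k + 1) a ∈ AS F ↔ plusQ F (k + 1) b ∈ AS F) := by
  rw [← plus_iff, ← plus_iff]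
  refine ⟨fun h => ⟨fun hp => h.symm.trans hp, fun hp => h.trans hp⟩, fun h => ?_⟩
  exact equiv_of_singular_iff k (nondeg_of _ (nondeg_P a)) (nondeg_of _ (nondeg_P b))
    (by rw [Module.finrank_fintype_fun_eq_card, Fintype.card_sum, Fintype.card_fin]; omega)
    (by rw [Module.finrank_fintype_fun_eq_card, Fintype.card_sum, Fintype.card_fin]; omega) h

omit [Fintype F] in
/-- The sum of two translations. -/
theorem AS_add (b c : V m F) : plusQ F m (b + c) ∈ AS F ↔ plusQ F m b + P b c ∈ AS F := by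
  have hm : B b c * B b c + B b c ∈ AS F := ⟨B b c, rfl⟩
  have e : plusQ F m (b + c) = (plusQ F m b + P b c) + (B b c * B b c + B b c) := by
    rw [Q_add, P_apply]
    linear_combination -CharTwo.add_self_eq_zero (B b c * B b c)
  rw [e, (AS F).add_mem_cancel_right hm]

omit [Fintype F] in
/-- A symplectic matrix keeping two forms fixes the difference. -/
theorem fix_of_two {g : Sp m F} {a b : V m F} (ha : ∀ x, P a (g.1 *ᵥ x) = P a x) (hb : ∀ x, P b (g.1 *ᵥ x) = P b x) :
    g.1 *ᵥ (a + b) = a + b := by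
  refine sub_eq_zero.1 (eq_zero_of_B_left fun x => ?_)
  rw [map_sub, LinearMap.sub_apply, sub_eq_zero]
  conv_lhs => rw [← mulVec_cancel_inv g x, B_map]
  set y := (g⁻¹).1 *ᵥ x with hy
  have hx : x = g.1 *ᵥ y := (mulVec_cancel_inv g x).symm
  have h1 := ha y
  have h2 := hb y
  rw [P_apply, P_apply, ← hx] at h1 h2
  have h3 : B (a + b) x * B (a + b) x = B (a + b) y * B (a + b) y := by
    simp only [map_add, LinearMap.add_apply]
    linear_combination h1 - h2 + CharTwo.add_self_eq_zero (B a x * B b x) - CharTwo.add_self_eq_zero (B a y * B b y)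
      + CharTwo.add_self_eq_zero (B b x * B b x) - CharTwo.add_self_eq_zero (B b y * B b y)
  rcases mul_self_eq_mul_self_iff.1 h3 with e | e
  · exact e.symm
  · rw [CharTwo.neg_eq] at e; exact e.symm

theorem card_AS_vectors {k : ℕ} :
    2 * Nat.card {a : V (k + 1) F // plusQ F (k + 1) a ∈ AS F}
      = Fintype.card F ^ (2 * (k + 1)) + Fintype.card F ^ (k + 1) := by
  have h1 : CfsgLib.Geometry.DicksonGen.rk (1 : Cfsg.isometryGroup F ⇑(plusQ F (k + 1))) = 0 := by
    rw [CfsgLib.Geometry.RankParity.rk_eq_rank,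
      show ((1 : Cfsg.isometryGroup F ⇑(plusQ F (k + 1))).1.1 - 1) = 0 from sub_self _, Matrix.rank_zero]
  have := CfsgLib.Geometry.InvolutionOmegaCount.count_alt (1 : Cfsg.isometryGroup F ⇑(plusQ F (k + 1))) (one_mul 1)
    (fun x => by rw [CfsgLib.Geometry.DicksonGen.N_apply]; simp)
  rw [h1, Nat.sub_zero] at this
  rw [← this]
  congr 1
  refine Nat.card_congr (Equiv.subtypeEquivRight fun a => ?_)
  simp

theorem exists_translate {k : ℕ} (a : V (k + 1) F) (g : Sp (k + 1) F) :
    ∃ b : V (k + 1) F, (plusQ F (k + 1) b ∈ AS F ↔ plusQ F (k + 1) a ∈ AS F) ∧ ∀ x, P b (g.1 *ᵥ x) = P a x := by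
  obtain ⟨b, hb⟩ := exists_P (fun x => P a ((g⁻¹).1 *ᵥ x))
    (fun c x => by rw [Matrix.mulVec_smul, QuadraticMap.map_smul, smul_eq_mul, sq])
    (fun u v => by
      simp only [QuadraticMap.polar, Matrix.mulVec_add]
      rw [← B_map g⁻¹ u v, ← polar_P a]; rfl)
  have h : ∀ x, P b (g.1 *ᵥ x) = P a x := fun x => by rw [← hb, mulVec_inv_cancel]
  refine ⟨b, (equiv_iff b a).1 (Equiv'.symm ⟨LinearEquiv.ofLinear g.1.mulVecLin (g⁻¹).1.mulVecLin
    (LinearMap.ext fun x => mulVec_cancel_inv g x) (LinearMap.ext fun x => mulVec_inv_cancel g x), h⟩), h⟩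

/-- The symplectic stabiliser of a form. -/
noncomputable def stab (a : V m F) : Subgroup (Sp m F) where
  carrier := {g | ∀ x, P a (g.1 *ᵥ x) = P a x}
  one_mem' x := by rw [OneMemClass.coe_one, Matrix.one_mulVec]
  mul_mem' {g h} hg hh x := by rw [mulVec_mul, hg, hh]
  inv_mem' {g} hg x := by rw [← hg, mulVec_cancel_inv]

theorem index_stab {k : ℕ} (a : V (k + 1) F) :
    (stab a).index = Nat.card {b : V (k + 1) F // plusQ F (k + 1) b ∈ AS F ↔ plusQ F (k + 1) a ∈ AS F} := by
  rw [Subgroup.index_eq_card]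
  have hex : ∀ b : {b : V (k + 1) F // plusQ F (k + 1) b ∈ AS F ↔ plusQ F (k + 1) a ∈ AS F},
      ∃ g : Sp (k + 1) F, ∀ x, P b.1 (g.1 *ᵥ x) = P a x := fun b => exists_sp ((equiv_iff a b.1).2 b.2.symm)
  choose g hg using hex
  refine (Nat.card_congr (Equiv.ofBijective (fun b => (QuotientGroup.mk (g b) : Sp (k + 1) F ⧸ stab a)) ⟨?_, ?_⟩)).symm
  · intro b c h
    have h' : ∀ x, P a (((g b)⁻¹ * g c).1 *ᵥ x) = P a x := QuotientGroup.eq.1 h
    refine Subtype.ext (P_inj fun y => ?_)
    obtain ⟨x, rfl⟩ : ∃ x, (g c).1 *ᵥ x = y := ⟨_, mulVec_cancel_inv (g c) y⟩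
    rw [hg c, ← h' x, mulVec_mul, ← hg b, mulVec_cancel_inv]
  · intro q
    induction q using QuotientGroup.induction_on with
    | H h =>
      obtain ⟨b, hb, hx⟩ := exists_translate a h
      refine ⟨⟨b, hb⟩, QuotientGroup.eq.2 fun x => ?_⟩
      rw [mulVec_mul, ← hg ⟨b, hb⟩, mulVec_cancel_inv, hx]

/-- Fixing a coset of the stabiliser. -/
theorem fixes_iff {k : ℕ} (a : V (k + 1) F) (x : Sp (k + 1) F) :
    (∃ g, g⁻¹ * x * g ∈ stab a) ↔
      ∃ b : V (k + 1) F, (plusQ F (k + 1) b ∈ AS F ↔ plusQ F (k + 1) a ∈ AS F) ∧ x ∈ stab b := by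
  constructor
  · rintro ⟨g, hg⟩
    obtain ⟨b, hb, hx⟩ := exists_translate a g
    refine ⟨b, hb, fun y => ?_⟩
    have := hg ((g⁻¹).1 *ᵥ y)
    rw [mulVec_mul, mulVec_mul, mulVec_cancel_inv, ← hx, ← hx, mulVec_cancel_inv, mulVec_cancel_inv] at this
    exact this
  · rintro ⟨b, hb, hx⟩
    obtain ⟨g, hg⟩ := exists_sp ((equiv_iff a b).2 hb.symm)
    refine ⟨g, fun y => ?_⟩
    rw [mulVec_mul, mulVec_mul, ← hg, mulVec_cancel_inv, hx, hg]

/-- Orbit sizes. -/
theorem card_types {k : ℕ} (a : V (k + 1) F) :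
    (plusQ F (k + 1) a ∈ AS F →
      2 * (stab a).index = Fintype.card F ^ (2 * (k + 1)) + Fintype.card F ^ (k + 1)) ∧
    (plusQ F (k + 1) a ∉ AS F →
      2 * (stab a).index + Fintype.card F ^ (k + 1) = Fintype.card F ^ (2 * (k + 1))) := by
  classical
  have h1 := card_AS_vectors (F := F) (k := k)
  have h2 : Nat.card {b : V (k + 1) F // plusQ F (k + 1) b ∈ AS F} + Nat.card {b : V (k + 1) F // plusQ F (k + 1) b ∉ AS F}
      = Fintype.card F ^ (2 * (k + 1)) := by
    rw [← Nat.card_sum, Nat.card_congr (Equiv.sumCompl fun b : V (k + 1) F => plusQ F (k + 1) b ∈ AS F),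
      Nat.card_eq_fintype_card, Fintype.card_fun, Fintype.card_sum, Fintype.card_fin, two_mul]
  rw [index_stab]
  constructor <;> intro h
  · rw [Nat.card_congr (Equiv.subtypeEquivRight fun b => iff_true_right h), h1]
  · rw [Nat.card_congr (Equiv.subtypeEquivRight fun b => iff_false_right h)]
    omega

/-- A symplectic element from an isometry. -/
theorem exists_of_iso {k : ℕ} (b : V (k + 1) F) (g : Cfsg.isometryGroup F ⇑(P b)) :
    ∃ x : Sp (k + 1) F, x.1 = g.1.1 ∧ x ∈ stab b :=
  ⟨⟨g.1.1, (mem_iff _).2 fun u v => by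
      rw [← polar_P b, ← polar_P b]; exact Reflections.iso_polar g u v⟩, rfl,
    fun y => (QuadBasic.mem_isometryGroup_iff (⇑(P b)) g.1).1 g.2 y⟩

theorem eq_one_of_scalar {k : ℕ} {x : Sp (k + 1) F} {z : F}
    (h : x.1 = z • (1 : Matrix (Fin (k + 1) ⊕ Fin (k + 1)) (Fin (k + 1) ⊕ Fin (k + 1)) F)) : x = 1 := by
  have hne : (Pi.single (Sum.inl 0) 1 : V (k + 1) F) ≠ 0 := Pi.single_eq_zero_iff.not.2 one_ne_zero
  obtain ⟨v, hv⟩ := exists_B_eq_one hne
  have h2 := B_map x (Pi.single (Sum.inl 0) 1) v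
  simp only [h, Matrix.smul_mulVec, Matrix.one_mulVec, map_smul, LinearMap.smul_apply, smul_eq_mul, hv, mul_one] at h2
  have hz : z = 1 := by
    rcases mul_self_eq_one_iff.1 h2 with e | e
    · exact e
    · rwa [CharTwo.neg_eq] at e
  exact Subtype.ext (by rw [h, hz, one_smul]; rfl)

end CfsgLib.Symplectic.FormTypes
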