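import Mathlib

/-!
Hearts of permutation modules over `ZMod 2`: an embedding/projection pair gives a faithful
representation of the symmetric group.
-/

set_option autoImplicit false
open Matrix

namespace CfsgLib.Symplectic.Heart

theorem exists_outside {N : ℕ} (S : Finset (Fin N)) (h : S.card < N) : ∃ x, x ∉ S := by
  by_contra hall
  push Not at hall
  rw [Finset.eq_univ_of_forall hall, Finset.card_univ, Fintype.card_fin] at h
  omega

/-- A coordinatisation of the heart of the permutation module on `N` points. -/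
structure Model (ι : Type) (N : ℕ) where
  emb : (ι → ZMod 2) →ₗ[ZMod 2] (Fin N → ZMod 2)
  proj : (Fin N → ZMod 2) →ₗ[ZMod 2] (ι → ZMod 2)
  proj_emb : ∀ x, proj (emb x) = x
  even_emb : ∀ x, ∑ j, emb x j = 0
  rest : ∀ w, ∑ j, w j = 0 → ∀ j k, (w - emb (proj w)) j = (w - emb (proj w)) k
  proj_one : proj (fun _ => 1) = 0

namespace Model

variable {ι : Type} {N : ℕ} (M : Model ι N)

theorem proj_of_const {d : Fin N → ZMod 2} (h : ∀ j k, d j = d k) : M.proj d = 0 := by
  rcases Nat.eq_zero_or_pos N with hN | hN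
  · subst hN
    have : d = 0 := funext fun j => j.elim0
    rw [this, map_zero]
  · have : d = d ⟨0, hN⟩ • (fun _ => (1 : ZMod 2)) := funext fun j => by simp [h j ⟨0, hN⟩]
    rw [this, map_smul, M.proj_one, smul_zero]

theorem proj_perm (σ : Equiv.Perm (Fin N)) {w : Fin N → ZMod 2} (hw : ∑ j, w j = 0) :
    M.proj (fun j => M.emb (M.proj w) (σ j)) = M.proj (fun j => w (σ j)) := by
  have h := M.proj_of_const (d := fun j => (w - M.emb (M.proj w)) (σ j)) (fun j k => M.rest w hw _ _)
  have e : (fun j => (w - M.emb (M.proj w)) (σ j))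
      = (fun j => w (σ j)) - (fun j => M.emb (M.proj w) (σ j)) := rfl
  rw [e, map_sub, sub_eq_zero] at h
  exact h.symm

/-- The action of a permutation on the heart. -/
def act (σ : Equiv.Perm (Fin N)) : (ι → ZMod 2) →ₗ[ZMod 2] (ι → ZMod 2) :=
  M.proj ∘ₗ (LinearMap.funLeft (ZMod 2) (ZMod 2) (⇑(σ⁻¹ : Equiv.Perm (Fin N)))) ∘ₗ M.emb

theorem act_apply (σ : Equiv.Perm (Fin N)) (x : ι → ZMod 2) :
    M.act σ x = M.proj (fun j => M.emb x (σ⁻¹ j)) := rfl

theorem act_one : M.act 1 = LinearMap.id :=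
  LinearMap.ext fun x => by simpa [act_apply] using M.proj_emb x

theorem act_mul (σ τ : Equiv.Perm (Fin N)) : M.act (σ * τ) = M.act σ ∘ₗ M.act τ := by
  refine LinearMap.ext fun x => ?_
  rw [LinearMap.comp_apply, act_apply, act_apply, act_apply,
    M.proj_perm σ⁻¹ (w := fun j => M.emb x (τ⁻¹ j))]
  · rfl
  · rw [Equiv.sum_comp (τ⁻¹) (M.emb x)]
    exact M.even_emb x

variable [Fintype ι] [DecidableEq ι]

/-- The representation on the heart. -/
def hom : Equiv.Perm (Fin N) →* GL ι (ZMod 2) :=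
  MonoidHom.toHomUnits
    { toFun := fun σ => LinearMap.toMatrix' (M.act σ)
      map_one' := by rw [act_one, LinearMap.toMatrix'_id]
      map_mul' := fun σ τ => by rw [act_mul, LinearMap.toMatrix'_comp] }

theorem hom_mulVec (σ : Equiv.Perm (Fin N)) (x : ι → ZMod 2) :
    (M.hom σ).1 *ᵥ x = M.proj (fun j => M.emb x (σ⁻¹ j)) := by
  change LinearMap.toMatrix' (M.act σ) *ᵥ x = _
  rw [LinearMap.toMatrix'_mulVec, act_apply]

theorem hom_injective (hN : 5 ≤ N) : Function.Injective M.hom := by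
  refine (injective_iff_map_eq_one _).2 fun σ hσ => Equiv.ext fun i => ?_
  rw [Equiv.Perm.one_apply]
  by_contra hne
  obtain ⟨k, hk⟩ : ∃ k : Fin N, k ∉ ({i, σ i} : Finset (Fin N)) :=
    exists_outside {i, σ i} (by have := Finset.card_le_two (a := i) (b := σ i); omega)
  simp only [Finset.mem_insert, Finset.mem_singleton, not_or] at hk
  -- the even vector supported on `{i, k}`
  set w : Fin N → ZMod 2 := Pi.single i 1 + Pi.single k 1 with hw
  have hsum : ∑ j, w j = 0 := by
    simp only [hw, Pi.add_apply, Finset.sum_add_distrib, Finset.sum_pi_single', Finset.mem_univ,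
      if_true]
    decide
  have h1 : M.proj (fun j => w (σ⁻¹ j)) = M.proj w := by
    rw [← M.proj_perm σ⁻¹ hsum, ← M.hom_mulVec, hσ, Units.val_one, Matrix.one_mulVec]
  set d : Fin N → ZMod 2 := (fun j => w (σ⁻¹ j)) - w with hd
  have hd0 : M.proj d = 0 := by rw [hd, map_sub, h1, sub_self]
  have hdsum : ∑ j, d j = 0 := by
    simp only [hd, Pi.sub_apply, Finset.sum_sub_distrib, hsum]
    rw [Equiv.sum_comp (σ⁻¹) w, hsum, sub_zero]
  have hdc : ∀ j l, d j = d l := fun j l => by
    simpa [hd0] using M.rest d hdsum j l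
  obtain ⟨l, hl⟩ : ∃ l : Fin N, l ∉ ({i, k, σ i, σ k} : Finset (Fin N)) :=
    exists_outside {i, k, σ i, σ k} (by have := Finset.card_le_four (a := i) (b := k) (c := σ i) (d := σ k); omega)
  simp only [Finset.mem_insert, Finset.mem_singleton, not_or] at hl
  obtain ⟨hl1, hl2, hl3, hl4⟩ := hl
  have e1 : σ⁻¹ l ≠ i := fun h => hl3 (by rw [← h, Equiv.Perm.coe_inv, Equiv.apply_symm_apply])
  have e2 : σ⁻¹ l ≠ k := fun h => hl4 (by rw [← h, Equiv.Perm.coe_inv, Equiv.apply_symm_apply])
  have hdl : d l = 0 := by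
    simp only [hd, hw, Pi.sub_apply, Pi.add_apply]
    rw [Pi.single_eq_of_ne e1, Pi.single_eq_of_ne e2, Pi.single_eq_of_ne hl1,
      Pi.single_eq_of_ne hl2]
    simp
  have hdi : d (σ i) = 0 := (hdc _ l).trans hdl
  simp only [hd, hw, Pi.sub_apply, Pi.add_apply, Equiv.Perm.coe_inv, Equiv.symm_apply_apply] at hdi
  rw [Pi.single_eq_same, Pi.single_eq_of_ne (Ne.symm hk.1), Pi.single_eq_of_ne hne,
    Pi.single_eq_of_ne (Ne.symm hk.2)] at hdi
  exact absurd hdi (by decide)

end Model

end CfsgLib.Symplectic.Heart
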