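import Cfsg.Agent.Lib.Symplectic.HeartForms

/-! The quadratic form on the heart of the permutation module on `4k+4` points. -/

set_option autoImplicit false
open Matrix

namespace CfsgLib.Symplectic.Heart

variable (k : ℕ)

abbrev Src (k : ℕ) := Fin (2 * k + 1) ⊕ Fin (2 * k + 1) → ZMod 2

/-- the first coordinates -/
def la (i : ℕ) : Src k →ₗ[ZMod 2] ZMod 2 :=
  if h : i < 2 * k + 1 then LinearMap.proj (R := ZMod 2) (φ := fun _ => ZMod 2) (Sum.inl ⟨i, h⟩) else 0

/-- the second coordinates -/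
def lb (i : ℕ) : Src k →ₗ[ZMod 2] ZMod 2 :=
  if h : i < 2 * k + 1 then LinearMap.proj (R := ZMod 2) (φ := fun _ => ZMod 2) (Sum.inr ⟨i, h⟩) else 0

/-- the first hyperbolic coordinate -/
def hx (i : ℕ) : Src k →ₗ[ZMod 2] ZMod 2 :=
  if i % 2 = 1 then la k i else if i % 4 = 0 then la k i + la k (i + 2) else lb k (i - 2) + lb k i

/-- the second hyperbolic coordinate -/
def hy (i : ℕ) : Src k →ₗ[ZMod 2] ZMod 2 :=
  if i % 2 = 1 then la k i + lb k i else if i % 4 = 0 then la k i + la k (i + 2) + lb k (i + 2)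
    else lb k (i - 2) + lb k i + la k (i - 2)

/-- the term of the form at one index -/
def term (x : Src k) (i : ℕ) : ZMod 2 :=
  la k i x * lb k i x + la k i x + if i % 2 = 0 then lb k i x else 0

theorem block_id (x : Src k) (t : ℕ) :
    ∑ i ∈ Finset.range (4 * t), term k x i = ∑ i ∈ Finset.range (4 * t), hx k i x * hy k i x := by
  induction t with
  | zero => simp
  | succ t ih =>
    rw [show 4 * (t + 1) = 4 * t + 1 + 1 + 1 + 1 by ring]
    rw [Finset.sum_range_succ, Finset.sum_range_succ, Finset.sum_range_succ, Finset.sum_range_succ,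
      Finset.sum_range_succ, Finset.sum_range_succ, Finset.sum_range_succ, Finset.sum_range_succ, ih,
      show 4 * t + 1 + 1 + 1 = 4 * t + 3 by ring, show 4 * t + 1 + 1 = 4 * t + 2 by ring,
      add_assoc, add_assoc, add_assoc, add_assoc, add_assoc, add_assoc]
    congr 1
    simp only [term, hx, hy, show (4 * t) % 2 = 0 by omega, show (4 * t + 1) % 2 = 1 by omega,
      show (4 * t + 2) % 2 = 0 by omega, show (4 * t + 3) % 2 = 1 by omega,
      show (4 * t) % 4 = 0 by omega, show (4 * t + 2) % 4 = 2 by omega, show 4 * t + 2 - 2 = 4 * t by omega,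
      one_ne_zero, zero_ne_one, OfNat.ofNat_ne_zero, if_true, if_false, LinearMap.add_apply]
    generalize la k (4 * t) x = a
    generalize lb k (4 * t) x = b
    generalize la k (4 * t + 1) x = a1
    generalize lb k (4 * t + 1) x = b1
    generalize la k (4 * t + 2) x = c
    generalize lb k (4 * t + 2) x = d
    generalize la k (4 * t + 3) x = a3
    generalize lb k (4 * t + 3) x = b3
    revert a b a1 b1 c d a3 b3
    decide +kernel

theorem dot_swap (x y : Src k) :
    sEmb (2 * k + 1) x ⬝ᵥ sEmb (2 * k + 1) y = ∑ s, x s * y (Sum.swap s) := by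
  rw [proj_dot (sEmb_even x) (sEmb_even y), sProj_emb, sProj_emb]

theorem halfWeight_add {N : ℕ} {u v : Fin N → ZMod 2} (hu : ∑ j, u j = 0) (hv : ∑ j, v j = 0) :
    halfWeight (u + v) = halfWeight u + halfWeight v + u ⬝ᵥ v := by
  classical
  have hz : ∀ a : ZMod 2, (if a = 1 then (1 : ZMod 2) else 0) = a := by decide
  have hcard : ∀ w : Fin N → ZMod 2, ((Finset.univ.filter fun j => w j = 1).card : ZMod 2) = ∑ j, w j := fun w => by
    rw [Finset.card_filter, Nat.cast_sum]
    exact Finset.sum_congr rfl fun j _ => by rw [Nat.cast_ite, Nat.cast_one, Nat.cast_zero, hz]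
  obtain ⟨a, ha⟩ : Even (Finset.univ.filter fun j => u j = 1).card := by
    rw [← ZMod.natCast_eq_zero_iff_even, hcard, hu]
  obtain ⟨b, hb⟩ : Even (Finset.univ.filter fun j => v j = 1).card := by
    rw [← ZMod.natCast_eq_zero_iff_even, hcard, hv]
  set c := (Finset.univ.filter fun j => u j = 1 ∧ v j = 1).card with hc
  have h1 : (Finset.univ.filter fun j => (u + v) j = 1).card + 2 * c =
      (Finset.univ.filter fun j => u j = 1).card + (Finset.univ.filter fun j => v j = 1).card := by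
    rw [hc, Finset.card_filter, Finset.card_filter, Finset.card_filter, Finset.card_filter, Finset.mul_sum,
      ← Finset.sum_add_distrib, ← Finset.sum_add_distrib]
    refine Finset.sum_congr rfl fun j _ => ?_
    simp only [Pi.add_apply]
    have key : ∀ p q : ZMod 2, ((if p + q = 1 then 1 else 0) + 2 * if p = 1 ∧ q = 1 then 1 else 0 : ℕ) =
        (if p = 1 then 1 else 0) + if q = 1 then 1 else 0 := by decide
    exact key _ _
  have h2 : (c : ZMod 2) = u ⬝ᵥ v := by
    rw [hc, Finset.card_filter, Nat.cast_sum, dotProduct]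
    refine Finset.sum_congr rfl fun j _ => ?_
    have key : ∀ p q : ZMod 2, ((if p = 1 ∧ q = 1 then 1 else 0 : ℕ) : ZMod 2) = p * q := by decide
    exact key _ _
  rw [← h2]
  simp only [halfWeight]
  rw [ha, hb, show (a + a) / 2 = a by omega, show (b + b) / 2 = b by omega]
  have h3 : (Finset.univ.filter fun j => (u + v) j = 1).card / 2 + c = a + b := by omega
  have h4 := congrArg (Nat.cast : ℕ → ZMod 2) h3
  push_cast at h4
  rw [← CharTwo.add_eq_zero] at h4
  have h5 : (2 : ZMod 2) = 0 := rfl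
  linear_combination h4 - ((a : ZMod 2) + b + c) * h5

theorem sum_term (x : Src k) : ∑ i ∈ Finset.range (2 * k + 1), term k x i =
    ∑ i : Fin (2 * k + 1), (x (Sum.inl i) * x (Sum.inr i) + x (Sum.inl i) +
      if (i : ℕ) % 2 = 0 then x (Sum.inr i) else 0) := by
  rw [← Fin.sum_univ_eq_sum_range]
  refine Finset.sum_congr rfl fun i _ => ?_
  simp [term, la, lb, i.2]

theorem halfWeight_emb (x : Src k) :
    halfWeight (sEmb (2 * k + 1) x) = ∑ i ∈ Finset.range (2 * k + 1), term k x i := by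
  classical
  rw [sum_term]
  let q : Src k → ZMod 2 := fun x => ∑ i : Fin (2 * k + 1), (x (Sum.inl i) * x (Sum.inr i) + x (Sum.inl i) +
      if (i : ℕ) % 2 = 0 then x (Sum.inr i) else 0)
  let g : Src k → ZMod 2 := fun x => halfWeight (sEmb (2 * k + 1) x)
  have hq : ∀ x y, q (x + y) = q x + q y + ∑ s, x s * y (Sum.swap s) := fun x y => by
    simp only [q, Fintype.sum_sum_type, Sum.swap_inl, Sum.swap_inr, ← Finset.sum_add_distrib, Pi.add_apply]
    refine Finset.sum_congr rfl fun i _ => ?_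
    split_ifs <;> ring
  have hg : ∀ x y, g (x + y) = g x + g y + ∑ s, x s * y (Sum.swap s) := fun x y => by
    simp only [g, map_add]
    rw [halfWeight_add (sEmb_even x) (sEmb_even y), dot_swap]
  let d : Src k →+ ZMod 2 := AddMonoidHom.mk' (fun x => g x - q x) fun x y => by rw [hg, hq]; ring
  suffices h : d = 0 by
    have := DFunLike.congr_fun h x
    exact sub_eq_zero.1 this
  refine AddMonoidHom.functions_ext' _ _ _ fun s => AddMonoidHom.ext fun a => ?_
  show g (Pi.single s a) - q (Pi.single s a) = 0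
  have hz : ∀ a : ZMod 2, a = 0 ∨ a = 1 := by decide
  rcases hz a with rfl | rfl
  · rw [Pi.single_zero]
    simp [g, q, halfWeight]
  rw [sub_eq_zero]
  have hb : sEmb (2 * k + 1) (Pi.single s 1) = bvec (2 * k + 1) s := by
    rw [sEmb_eq, Finset.sum_eq_single s]
    · simp
    · intro t _ hts; simp [Pi.single_eq_of_ne hts]
    · simp
  simp only [g, hb, halfWeight]
  rcases s with i | i
  · have hc : (Finset.univ.filter fun j => bvec (2 * k + 1) (Sum.inl i) j = 1) =
        {⟨2 * i, by omega⟩, ⟨2 * i + 1, by omega⟩} := by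
      ext j
      simp [bvec, Fin.ext_iff]
      omega
    rw [hc, Finset.card_pair (by simp [Fin.ext_iff])]
    simp [q, Pi.single_apply]
  · have hc : (Finset.univ.filter fun j => bvec (2 * k + 1) (Sum.inr i) j = 1).card = 2 * (2 * k + 1 - i) := by
      have : (Finset.univ.filter fun j => bvec (2 * k + 1) (Sum.inr i) j = 1) =
          Finset.Icc (⟨2 * i + 1, by omega⟩ : Fin (2 * (2 * k + 1) + 2)) ⟨2 * (2 * k + 1), by omega⟩ := by
        ext j
        simp [bvec, Fin.le_def]
      rw [this, Fin.card_Icc]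
      simp only
      omega
    rw [hc, Nat.mul_div_cancel_left _ (by norm_num : 0 < 2)]
    simp only [q, Pi.single_apply, reduceCtorEq, if_false, zero_mul, zero_add, Sum.inr.injEq]
    rw [Finset.sum_eq_single i (fun j _ hj => by simp [hj]) (by simp), if_pos rfl]
    split_ifs with h
    · rw [ZMod.natCast_eq_one_iff_odd, Nat.odd_iff]; omega
    · rw [ZMod.natCast_eq_zero_iff_even, Nat.even_iff]; omega

/-- a heart model from a change of coordinates -/
def mapModel {ι : Type} (Φ : Src k ≃ₗ[ZMod 2] (ι → ZMod 2)) : Model ι (2 * (2 * k + 1) + 2) where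
  emb := sEmb (2 * k + 1) ∘ₗ Φ.symm.toLinearMap
  proj := Φ.toLinearMap ∘ₗ sProj (2 * k + 1)
  proj_emb x := by simp [sProj_emb]
  even_emb x := sEmb_even _
  rest w hw i j := by
    simp only [LinearMap.comp_apply, LinearEquiv.coe_coe, LinearEquiv.symm_apply_apply]
    exact (sModel (2 * k + 1)).rest w hw i j
  proj_one := by
    show Φ (sProj (2 * k + 1) fun _ => 1) = 0
    rw [show sProj (2 * k + 1) (fun _ => 1) = 0 from (sModel (2 * k + 1)).proj_one, map_zero]

theorem exists_hom {ι : Type} [Fintype ι] [DecidableEq ι] (hk : 1 ≤ k) (Q : (ι → ZMod 2) → ZMod 2)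
    (hι : Fintype.card ι = 2 * (2 * k + 1)) (f : Src k →ₗ[ZMod 2] (ι → ZMod 2)) (hf : Function.Injective f)
    (hQ : ∀ x, Q (f x) = ∑ i ∈ Finset.range (2 * k + 1), term k x i) :
    ∃ φ : Equiv.Perm (Fin (4 * k + 4)) →* ↥(Cfsg.isometryGroup (ZMod 2) Q), Function.Injective φ := by
  let Φ : Src k ≃ₗ[ZMod 2] (ι → ZMod 2) := LinearMap.linearEquivOfInjective f hf (by
    rw [Module.finrank_pi, Module.finrank_pi, Fintype.card_sum, Fintype.card_fin, hι]; ring)
  have key : ∀ w : Fin (2 * (2 * k + 1) + 2) → ZMod 2, ∑ j, w j = 0 →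
      Q ((mapModel k Φ).proj w) = halfWeight w := by
    intro w hw
    show Q (f (sProj (2 * k + 1) w)) = _
    rw [hQ, ← halfWeight_emb]
    set d := w - sEmb (2 * k + 1) (sProj (2 * k + 1) w) with hd
    have hds : ∑ j, d j = 0 := by simp [hd, Finset.sum_sub_distrib, hw, sEmb_even]
    have e : w = sEmb (2 * k + 1) (sProj (2 * k + 1) w) + d := by rw [hd]; abel
    have hdot : sEmb (2 * k + 1) (sProj (2 * k + 1) w) ⬝ᵥ d = 0 := by
      have hc := fun i => (sModel (2 * k + 1)).rest w hw i 0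
      rw [dotProduct, Finset.sum_congr rfl fun i _ => by rw [show d i = d 0 from hc i], ← Finset.sum_mul, sEmb_even,
        zero_mul]
    have hd0 : halfWeight d = 0 := by
      have hc : ∀ i, d i = d 0 := fun i => (sModel (2 * k + 1)).rest w hw i 0
      have hz : ∀ a : ZMod 2, a = 0 ∨ a = 1 := by decide
      unfold halfWeight
      rcases hz (d 0) with h | h
      · simp [hc, h]
      · rw [Finset.filter_true_of_mem fun i _ => (hc i).trans h, Finset.card_univ, Fintype.card_fin,
          ZMod.natCast_eq_zero_iff_even]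
        exact ⟨k + 1, by omega⟩
    conv_rhs => rw [e, halfWeight_add (sEmb_even _) hds, hdot, hd0, add_zero, add_zero]
  have hN : 2 * (2 * k + 1) + 2 = 4 * k + 4 := by ring
  rw [← hN]
  exact ⟨MonoidHom.codRestrict (mapModel k Φ).hom _ (hom_mem _ Q key),
    (MonoidHom.injective_codRestrict _ _ _).2 ((mapModel k Φ).hom_injective (by omega))⟩

theorem hyper_recover (x : Src k) (i : ℕ) (hi : i < 2 * k + 1) (hx0 : ∀ j, j < 2 * k + 1 →
      (j % 4 = 0 → j + 2 < 2 * k + 1) → hx k j x = 0 ∧ hy k j x = 0)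
    (hlast : ∀ j, j < 2 * k + 1 → j % 4 = 0 → ¬ j + 2 < 2 * k + 1 → la k j x = 0 ∧ lb k j x = 0) :
    la k i x = 0 ∧ lb k i x = 0 := by
  have four : ∀ a b c d : ZMod 2, a + c = 0 → a + c + d = 0 → b + d = 0 → b + d + a = 0 →
      a = 0 ∧ b = 0 ∧ c = 0 ∧ d = 0 := by decide
  rcases (show i % 2 = 1 ∨ i % 4 = 0 ∨ i % 4 = 2 by omega) with h | h | h
  · obtain ⟨h1, h2⟩ := hx0 i hi (by omega)
    simp only [hx, hy, h, if_true, LinearMap.add_apply] at h1 h2
    rw [h1, zero_add] at h2
    exact ⟨h1, h2⟩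
  · by_cases h' : i + 2 < 2 * k + 1
    · obtain ⟨h1, h2⟩ := hx0 i hi (fun _ => h')
      obtain ⟨h3, h4⟩ := hx0 (i + 2) h' (by omega)
      simp only [hx, hy, show ¬ i % 2 = 1 by omega, show ¬ (i + 2) % 2 = 1 by omega, h,
        show ¬ (i + 2) % 4 = 0 by omega, Nat.add_sub_cancel, if_true, if_false, LinearMap.add_apply] at h1 h2 h3 h4
      obtain ⟨r1, r2, -, -⟩ := four _ _ _ _ h1 h2 h3 h4
      exact ⟨r1, r2⟩
    · exact hlast i hi h h'
  · obtain ⟨h1, h2⟩ := hx0 (i - 2) (by omega) (by omega)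
    obtain ⟨h3, h4⟩ := hx0 i hi (by omega)
    simp only [hx, hy, show ¬ i % 2 = 1 by omega, show ¬ (i - 2) % 2 = 1 by omega, show (i - 2) % 4 = 0 by omega,
      show ¬ i % 4 = 0 by omega, show i - 2 + 2 = i by omega, if_true, if_false, LinearMap.add_apply] at h1 h2 h3 h4
    obtain ⟨-, -, r1, r2⟩ := four _ _ _ _ h1 h2 h3 h4
    exact ⟨r1, r2⟩

theorem src_zero (x : Src k) (h : ∀ i, i < 2 * k + 1 → la k i x = 0 ∧ lb k i x = 0) : x = 0 := by
  funext s
  rcases s with i | i
  · simpa [la, i.2] using (h i i.2).1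
  · simpa [lb, i.2] using (h i i.2).2

theorem plus_hom (hk : 1 ≤ k) (ho : Odd k) : ∃ φ : Equiv.Perm (Fin (4 * k + 4)) →*
    ↥(Cfsg.isometryGroup (ZMod 2) (Cfsg.quadFormPlus (2 * k + 1) (ZMod 2))), Function.Injective φ := by
  obtain ⟨t, rfl⟩ := ho
  let f : Src (2 * t + 1) →ₗ[ZMod 2] (Fin (2 * (2 * t + 1) + 1) ⊕ Fin (2 * (2 * t + 1) + 1) → ZMod 2) :=
    LinearMap.pi (Sum.elim (fun i => hx (2 * t + 1) i) fun i => hy (2 * t + 1) i)
  refine exists_hom (2 * t + 1) hk _ ?_ f ?_ fun x => ?_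
  · rw [Fintype.card_sum, Fintype.card_fin]; ring
  · refine (injective_iff_map_eq_zero f).2 fun x h => src_zero _ x fun i hi => ?_
    exact hyper_recover _ x i hi (fun j hj _ => ⟨congrFun h (Sum.inl ⟨j, hj⟩), congrFun h (Sum.inr ⟨j, hj⟩)⟩)
      (fun j hj hj0 hjn => absurd (show j + 2 < 2 * (2 * t + 1) + 1 by omega) hjn)
  · show ∑ i : Fin _, hx (2 * t + 1) i x * hy (2 * t + 1) i x = _
    rw [Fin.sum_univ_eq_sum_range (fun i => hx (2 * t + 1) i x * hy (2 * t + 1) i x)]
    have h := block_id (2 * t + 1) x (t + 1)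
    rw [show 4 * (t + 1) = 2 * (2 * t + 1) + 1 + 1 by ring, Finset.sum_range_succ, Finset.sum_range_succ, Finset.sum_range_succ] at h
    have e1 : hx (2 * t + 1) (2 * (2 * t + 1) + 1) x = 0 := by
      simp [hx, la, show (2 * (2 * t + 1) + 1) % 2 = 1 by omega]
    have e2 : term (2 * t + 1) x (2 * (2 * t + 1) + 1) = 0 := by
      simp [term, la, lb]
    rw [e1, e2, zero_mul, add_zero, add_zero] at h
    rw [Finset.sum_range_succ (fun i => term (2 * t + 1) x i)]
    exact h.symm

theorem minus_hom (hk : 1 ≤ k) (he : Even k) : ∃ φ : Equiv.Perm (Fin (4 * k + 4)) →*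
    ↥(Cfsg.isometryGroup (ZMod 2) (Cfsg.quadFormMinus (2 * k) (ZMod 2) 1 1)), Function.Injective φ := by
  obtain ⟨t, rfl⟩ := he
  let f : Src (t + t) →ₗ[ZMod 2] ((Fin (2 * (t + t)) ⊕ Fin (2 * (t + t))) ⊕ Fin 2 → ZMod 2) :=
    LinearMap.pi (Sum.elim (Sum.elim (fun i => hx (t + t) i) fun i => hy (t + t) i)
      fun z => if z = 0 then la (t + t) (2 * (t + t)) else lb (t + t) (2 * (t + t)))
  refine exists_hom (t + t) hk _ ?_ f ?_ fun x => ?_
  · simp only [Fintype.card_sum, Fintype.card_fin]; ring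
  · refine (injective_iff_map_eq_zero f).2 fun x h => src_zero _ x fun i hi => ?_
    refine hyper_recover _ x i hi (fun j hj hj4 => ?_) (fun j hj hj0 hjn => ?_)
    · have hj' : j < 2 * (t + t) := by
        by_contra hge
        have := hj4 (by omega)
        omega
      exact ⟨congrFun h (Sum.inl (Sum.inl ⟨j, hj'⟩)), congrFun h (Sum.inl (Sum.inr ⟨j, hj'⟩))⟩
    · obtain rfl : j = 2 * (t + t) := by omega
      exact ⟨congrFun h (Sum.inr 0), congrFun h (Sum.inr 1)⟩
  · show (∑ i : Fin (2 * (t + t)), hx (t + t) i x * hy (t + t) i x) + ((la (t + t) (2 * (t + t)) x) ^ 2 +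
      1 * la (t + t) (2 * (t + t)) x * lb (t + t) (2 * (t + t)) x + 1 * (lb (t + t) (2 * (t + t)) x) ^ 2) = _
    have hb := block_id (t + t) x t
    rw [show 4 * t = 2 * (t + t) by ring] at hb
    rw [Fin.sum_univ_eq_sum_range (fun i => hx (t + t) i x * hy (t + t) i x), Finset.sum_range_succ, hb]
    congr 1
    simp only [term, show (2 * (t + t)) % 2 = 0 by omega, if_true]
    generalize la (t + t) (2 * (t + t)) x = a
    generalize lb (t + t) (2 * (t + t)) x = b
    revert a b
    decide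

end CfsgLib.Symplectic.Heart
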