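import Mathlib
import Cfsg.Prelude.Def_Classical
import Cfsg.Agent.Lib.Symplectic.Heart
import Cfsg.Agent.Lib.Symplectic.Basic

/-!
Concrete heart models: the symplectic one on `2m+2` points, and the quadratic ones on 5 and 8 points.
-/

set_option autoImplicit false
open Matrix

namespace CfsgLib.Symplectic.Heart

section Symp

variable (m : ℕ)

/-- The symplectic basis of the heart. -/
def bvec : Fin m ⊕ Fin m → Fin (2 * m + 2) → ZMod 2
  | Sum.inl i => fun j => if (j : ℕ) / 2 = (i : ℕ) then 1 else 0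
  | Sum.inr i => fun j => if 2 * (i : ℕ) + 1 ≤ (j : ℕ) ∧ (j : ℕ) ≤ 2 * m then 1 else 0

variable {m}

theorem dot_inl (w : Fin (2 * m + 2) → ZMod 2) (i : Fin m) :
    w ⬝ᵥ bvec m (Sum.inl i)
      = w ⟨2 * i, by omega⟩ + w ⟨2 * i + 1, by omega⟩ := by
  have hne : (⟨2 * i, by omega⟩ : Fin (2 * m + 2)) ≠ ⟨2 * i + 1, by omega⟩ := by simp [Fin.ext_iff]
  rw [dotProduct, Finset.sum_eq_add (⟨2 * i, by omega⟩ : Fin (2 * m + 2)) ⟨2 * i + 1, by omega⟩ hne]
  · simp only [bvec]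
    rw [if_pos (by omega), if_pos (by omega), mul_one, mul_one]
  · intro j _ hj
    simp only [bvec]
    rw [if_neg, mul_zero]
    simp only [ne_eq, Fin.ext_iff] at hj
    omega
  · simp
  · simp

theorem bvec_inr_sum (i : Fin m) : ∑ j, bvec m (Sum.inr i) j = 0 := by
  simp only [bvec]
  rw [Fin.sum_univ_eq_sum_range (fun j => if 2 * (i : ℕ) + 1 ≤ j ∧ j ≤ 2 * m then (1 : ZMod 2) else 0),
    Finset.sum_boole]
  have : (Finset.range (2 * m + 2)).filter (fun j => 2 * (i : ℕ) + 1 ≤ j ∧ j ≤ 2 * m)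
      = Finset.Icc (2 * (i : ℕ) + 1) (2 * m) := by
    ext j
    simp only [Finset.mem_filter, Finset.mem_range, Finset.mem_Icc]
    omega
  rw [this, Nat.card_Icc, ZMod.natCast_eq_zero_iff_even]
  exact ⟨m - i, by omega⟩

theorem bvec_mul (i k : Fin m) (h : (i : ℕ) ≤ k) (j : Fin (2 * m + 2)) :
    bvec m (Sum.inr i) j * bvec m (Sum.inr k) j = bvec m (Sum.inr k) j := by
  simp only [bvec]
  by_cases hj : 2 * (k : ℕ) + 1 ≤ (j : ℕ) ∧ (j : ℕ) ≤ 2 * m
  · rw [if_pos hj, if_pos (by omega), mul_one]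
  · rw [if_neg hj, mul_zero]

theorem bvec_dot (s t : Fin m ⊕ Fin m) :
    bvec m s ⬝ᵥ bvec m t = if t = Sum.swap s then 1 else 0 := by
  rcases s with i | i <;> rcases t with k | k
  · rw [if_neg (by simp), dot_inl]
    simp only [bvec]
    by_cases h : (i : ℕ) = (k : ℕ)
    · rw [if_pos (by omega), if_pos (by omega)]
      decide
    · rw [if_neg (by omega), if_neg (by omega), add_zero]
  · rw [dotProduct_comm, dot_inl]
    simp only [bvec, Sum.swap_inl, Sum.inr.injEq, Fin.ext_iff]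
    rcases lt_trichotomy (k : ℕ) (i : ℕ) with h | h | h
    · rw [if_pos (by omega), if_pos (by omega), if_neg (by omega)]
      decide
    · rw [if_neg (by omega), if_pos (by omega), if_pos (by omega), zero_add]
    · rw [if_neg (by omega), if_neg (by omega), if_neg (by omega), add_zero]
  · rw [dot_inl]
    simp only [bvec, Sum.swap_inr, Sum.inl.injEq, Fin.ext_iff]
    rcases lt_trichotomy (i : ℕ) (k : ℕ) with h | h | h
    · rw [if_pos (by omega), if_pos (by omega), if_neg (by omega)]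
      decide
    · rw [if_neg (by omega), if_pos (by omega), if_pos (by omega), zero_add]
    · rw [if_neg (by omega), if_neg (by omega), if_neg (by omega), add_zero]
  · rw [if_neg (by simp)]
    rcases le_total (i : ℕ) (k : ℕ) with h | h
    · rw [dotProduct, Finset.sum_congr rfl (fun j _ => bvec_mul i k h j), bvec_inr_sum]
    · rw [dotProduct_comm, dotProduct, Finset.sum_congr rfl (fun j _ => bvec_mul k i h j), bvec_inr_sum]

theorem bvec_sum (s : Fin m ⊕ Fin m) : ∑ j, bvec m s j = 0 := by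
  rcases s with i | i
  · have h : (fun _ => (1 : ZMod 2)) ⬝ᵥ bvec m (Sum.inl i) = 0 := by
      rw [dot_inl]
      decide
    simpa [dotProduct] using h
  · exact bvec_inr_sum i

variable (m)

/-- Embedding. -/
def sEmb : (Fin m ⊕ Fin m → ZMod 2) →ₗ[ZMod 2] (Fin (2 * m + 2) → ZMod 2) :=
  Fintype.linearCombination (ZMod 2) (bvec m)

/-- Projection. -/
def sProj : (Fin (2 * m + 2) → ZMod 2) →ₗ[ZMod 2] (Fin m ⊕ Fin m → ZMod 2) :=
  LinearMap.pi fun s => (dotProductBilin (ZMod 2) (ZMod 2)).flip (bvec m (Sum.swap s))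

variable {m}

theorem sEmb_eq (x : Fin m ⊕ Fin m → ZMod 2) : sEmb m x = ∑ s, x s • bvec m s := by
  rw [sEmb, Fintype.linearCombination_apply]

theorem sProj_apply (w : Fin (2 * m + 2) → ZMod 2) (s : Fin m ⊕ Fin m) :
    sProj m w s = w ⬝ᵥ bvec m (Sum.swap s) := rfl

theorem sEmb_dot (x : Fin m ⊕ Fin m → ZMod 2) (w : Fin (2 * m + 2) → ZMod 2) :
    sEmb m x ⬝ᵥ w = ∑ s, x s * (bvec m s ⬝ᵥ w) := by
  rw [sEmb_eq, sum_dotProduct]
  simp [smul_dotProduct]

theorem sProj_emb (x : Fin m ⊕ Fin m → ZMod 2) : sProj m (sEmb m x) = x := by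
  funext t
  rw [sProj_apply, sEmb_dot, Finset.sum_eq_single t]
  · rw [bvec_dot, if_pos rfl, mul_one]
  · intro s _ hs
    rw [bvec_dot, if_neg, mul_zero]
    exact fun h => hs (by simpa using (congrArg Sum.swap h).symm)
  · simp

theorem sEmb_even (x : Fin m ⊕ Fin m → ZMod 2) : ∑ j, sEmb m x j = 0 := by
  have h : sEmb m x ⬝ᵥ (fun _ => (1 : ZMod 2)) = 0 := by
    rw [sEmb_dot]
    simp [dotProduct, bvec_sum]
  simpa [dotProduct] using h

theorem const_of_proj_zero {d : Fin (2 * m + 2) → ZMod 2} (h : sProj m d = 0)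
    (hs : ∑ j, d j = 0) : ∀ j, d j = d 0 := by
  have hu : ∀ i : ℕ, ∀ hi : i < m, d ⟨2 * i + 1, by omega⟩ = d ⟨2 * i, by omega⟩ := by
    intro i hi
    have := congrFun h (Sum.inr ⟨i, hi⟩)
    rw [sProj_apply, Sum.swap_inr, dot_inl, Pi.zero_apply, CharTwo.add_eq_zero] at this
    exact this.symm
  have hv : ∀ i : ℕ, ∀ hi : i < m, d ⟨2 * i + 2, by omega⟩ = d ⟨2 * i + 1, by omega⟩ := by
    intro i hi
    have h1 := congrFun h (Sum.inl ⟨i, hi⟩)
    rw [sProj_apply, Sum.swap_inl, Pi.zero_apply] at h1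
    have hpair : d ⬝ᵥ (fun j : Fin (2 * m + 2) =>
        if (j : ℕ) = 2 * i + 1 ∨ (j : ℕ) = 2 * i + 2 then (1 : ZMod 2) else 0) = 0 := by
      by_cases hi1 : i + 1 < m
      · have h2 := congrFun h (Sum.inl ⟨i + 1, hi1⟩)
        rw [sProj_apply, Sum.swap_inl, Pi.zero_apply] at h2
        have : (fun j : Fin (2 * m + 2) =>
            if (j : ℕ) = 2 * i + 1 ∨ (j : ℕ) = 2 * i + 2 then (1 : ZMod 2) else 0)
            = bvec m (Sum.inr ⟨i, hi⟩) + bvec m (Sum.inr ⟨i + 1, hi1⟩) := by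
          funext j
          simp only [bvec, Pi.add_apply]
          split_ifs <;> first | rfl | decide | omega
        rw [this, dotProduct_add, h1, h2, add_zero]
      · have : (fun j : Fin (2 * m + 2) =>
            if (j : ℕ) = 2 * i + 1 ∨ (j : ℕ) = 2 * i + 2 then (1 : ZMod 2) else 0)
            = bvec m (Sum.inr ⟨i, hi⟩) := by
          funext j
          simp only [bvec]
          split_ifs <;> first | rfl | omega
        rw [this, h1]
    have hne : (⟨2 * i + 1, by omega⟩ : Fin (2 * m + 2)) ≠ ⟨2 * i + 2, by omega⟩ := by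
      simp [Fin.ext_iff]
    rw [dotProduct, Finset.sum_eq_add (⟨2 * i + 1, by omega⟩ : Fin (2 * m + 2))
      ⟨2 * i + 2, by omega⟩ hne] at hpair
    · simp only [or_true, true_or, if_true, mul_one] at hpair
      rw [CharTwo.add_eq_zero] at hpair
      exact hpair.symm
    · intro j _ hj
      rw [if_neg, mul_zero]
      simp only [ne_eq, Fin.ext_iff] at hj
      omega
    · simp
    · simp
  have main : ∀ k : ℕ, ∀ hk : k ≤ 2 * m, d ⟨k, by omega⟩ = d 0 := by
    intro k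
    induction k with
    | zero => intro _; rfl
    | succ k ih =>
      intro hk
      rw [← ih (by omega)]
      rcases Nat.even_or_odd' k with ⟨i, rfl | rfl⟩
      · exact hu i (by omega)
      · exact hv i (by omega)
  intro j
  rcases Nat.lt_or_ge (j : ℕ) (2 * m + 1) with hj | hj
  · exact main j (by omega)
  · have hjl : j = Fin.last (2 * m + 1) := Fin.ext (by simp only [Fin.val_last]; omega)
    rw [Fin.sum_univ_castSucc, Finset.sum_congr rfl (fun (x : Fin (2 * m + 1)) _ =>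
      (main x.val (by omega) : d x.castSucc = d 0))] at hs
    rw [Finset.sum_const, Finset.card_univ, Fintype.card_fin, nsmul_eq_mul, Nat.cast_add,
      Nat.cast_mul, show ((2 : ℕ) : ZMod 2) = 0 from rfl, zero_mul, zero_add, Nat.cast_one,
      one_mul, CharTwo.add_eq_zero] at hs
    rw [hjl, hs]

variable (m)

/-- The symplectic model. -/
def sModel : Model (Fin m ⊕ Fin m) (2 * m + 2) where
  emb := sEmb m
  proj := sProj m
  proj_emb := sProj_emb
  even_emb := sEmb_even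
  rest := fun w hw j k => by
    have h0 : sProj m (w - sEmb m (sProj m w)) = 0 := by rw [map_sub, sProj_emb, sub_self]
    have hs : ∑ l, (w - sEmb m (sProj m w)) l = 0 := by
      simp only [Pi.sub_apply, Finset.sum_sub_distrib, hw, sEmb_even, sub_zero]
    rw [const_of_proj_zero h0 hs j, const_of_proj_zero h0 hs k]
  proj_one := by
    funext s
    rw [sProj_apply]
    simp [dotProduct, bvec_sum]

variable {m}

theorem proj_dot {w w' : Fin (2 * m + 2) → ZMod 2} (hw : ∑ j, w j = 0) (hw' : ∑ j, w' j = 0) :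
    w ⬝ᵥ w' = ∑ s, sProj m w s * sProj m w' (Sum.swap s) := by
  have h0 : sProj m (w - sEmb m (sProj m w)) = 0 := by rw [map_sub, sProj_emb, sub_self]
  have hs : ∑ l, (w - sEmb m (sProj m w)) l = 0 := by
    simp only [Pi.sub_apply, Finset.sum_sub_distrib, hw, sEmb_even, sub_zero]
  have hc := const_of_proj_zero h0 hs
  have hz : (w - sEmb m (sProj m w)) ⬝ᵥ w' = 0 := by
    rw [dotProduct, Finset.sum_congr rfl (fun l _ => by rw [hc l]), ← Finset.mul_sum, hw', mul_zero]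
  rw [sub_dotProduct, sub_eq_zero] at hz
  rw [hz, sEmb_dot]
  refine Finset.sum_congr rfl fun s _ => ?_
  rw [sProj_apply (w := w') (s := Sum.swap s), Sum.swap_swap, dotProduct_comm w']

theorem form_eq (a b : Fin m ⊕ Fin m → ZMod 2) :
    CfsgLib.Symplectic.Basic.B a b = ∑ s, a s * b (Sum.swap s) := by
  rw [CfsgLib.Symplectic.Basic.B_expand, Fintype.sum_sum_type, ← Finset.sum_add_distrib]
  refine Finset.sum_congr rfl fun i _ => ?_
  simp only [Sum.swap_inl, Sum.swap_inr, CharTwo.sub_eq_add]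
  ring

theorem sModel_mem (σ : Equiv.Perm (Fin (2 * m + 2))) :
    ((sModel m).hom σ).1 ∈ Matrix.symplecticGroup (Fin m) (ZMod 2) := by
  rw [CfsgLib.Symplectic.Basic.mem_iff]
  intro u v
  rw [(sModel m).hom_mulVec, (sModel m).hom_mulVec, form_eq, form_eq]
  have he : ∀ x, ∑ j, sEmb m x (σ⁻¹ j) = 0 := fun x => by
    rw [Equiv.sum_comp (σ⁻¹) (sEmb m x)]; exact sEmb_even x
  have h1 := proj_dot (he u) (he v)
  have h2 := proj_dot (sEmb_even u) (sEmb_even v)
  rw [sProj_emb, sProj_emb] at h2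
  change ∑ s, sProj m (fun j => sEmb m u (σ⁻¹ j)) s * sProj m (fun j => sEmb m v (σ⁻¹ j)) (Sum.swap s) = _
  rw [← h1, ← h2, dotProduct, dotProduct, Equiv.sum_comp (σ⁻¹) (fun j => sEmb m u j * sEmb m v j)]

variable (m)

/-- `S_{2m+2} → Sp_{2m}(2)`. -/
def sHom : Equiv.Perm (Fin (2 * m + 2)) →* Matrix.symplecticGroup (Fin m) (ZMod 2) where
  toFun σ := ⟨((sModel m).hom σ).1, sModel_mem σ⟩
  map_one' := Subtype.ext (congrArg Units.val (map_one (sModel m).hom))
  map_mul' σ τ := Subtype.ext (congrArg Units.val (map_mul (sModel m).hom σ τ))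

variable {m}

theorem sHom_injective (hm : 2 ≤ m) : Function.Injective (sHom m) := fun σ τ h =>
  (sModel m).hom_injective (by omega) (Units.ext (congrArg (fun A => A.1) h))

end Symp

section Quad

/-- Half the weight, mod 2. -/
def halfWeight {N : ℕ} (w : Fin N → ZMod 2) : ZMod 2 :=
  (((Finset.univ.filter fun j => w j = 1).card / 2 : ℕ) : ZMod 2)

theorem halfWeight_perm {N : ℕ} (σ : Equiv.Perm (Fin N)) (w : Fin N → ZMod 2) :
    halfWeight (fun j => w (σ j)) = halfWeight w := by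
  unfold halfWeight
  congr 2
  exact Finset.card_equiv σ (fun j => by simp)

theorem hom_mem {ι : Type} [Fintype ι] [DecidableEq ι] {N : ℕ} (M : Model ι N)
    (Q : (ι → ZMod 2) → ZMod 2)
    (hQ : ∀ w : Fin N → ZMod 2, ∑ j, w j = 0 → Q (M.proj w) = halfWeight w)
    (σ : Equiv.Perm (Fin N)) : M.hom σ ∈ Cfsg.isometryGroup (ZMod 2) Q := by
  intro u v
  change Q ((M.hom σ).1 *ᵥ u) = Q u
  rw [M.hom_mulVec, hQ, halfWeight_perm, ← hQ _ (M.even_emb u), M.proj_emb]
  rw [Equiv.sum_comp (σ⁻¹) (M.emb u)]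
  exact M.even_emb u

/-- Five points. -/
def mat5 : Matrix (Fin 5) ((Fin 1 ⊕ Fin 1) ⊕ Fin 2) (ZMod 2) :=
  Matrix.of fun j s => match s with
    | Sum.inl (Sum.inl _) => if j = 0 then 0 else 1
    | Sum.inl (Sum.inr _) => if j = 1 then 0 else 1
    | Sum.inr z => if (j : ℕ) = (z : ℕ) + 2 ∨ (j : ℕ) = (z : ℕ) + 3 then 1 else 0

/-- Five points, inverse. -/
def inv5 : Matrix ((Fin 1 ⊕ Fin 1) ⊕ Fin 2) (Fin 5) (ZMod 2) :=
  Matrix.of fun s j => match s with
    | Sum.inl (Sum.inl _) => if j = 1 then 1 else 0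
    | Sum.inl (Sum.inr _) => if j = 0 then 1 else 0
    | Sum.inr z => if j = 0 ∨ j = 1 ∨ (j : ℕ) = 2 * (z : ℕ) + 2 then 1 else 0

theorem inv5_one : inv5 *ᵥ (fun _ => (1 : ZMod 2)) ≠ 0 := by decide +kernel

theorem proj5_emb : ∀ x : (Fin 1 ⊕ Fin 1) ⊕ Fin 2 → ZMod 2, inv5 *ᵥ (mat5 *ᵥ x) = x := by
  decide +kernel

theorem even5 : ∀ x : (Fin 1 ⊕ Fin 1) ⊕ Fin 2 → ZMod 2, ∑ j, (mat5 *ᵥ x) j = 0 := by
  decide +kernel

theorem rest5 : ∀ w : Fin 5 → ZMod 2, ∑ j, w j = 0 → mat5 *ᵥ (inv5 *ᵥ w) = w := by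
  decide +kernel

theorem quad5 : ∀ w : Fin 5 → ZMod 2, ∑ j, w j = 0 →
    Cfsg.quadFormMinus 1 (ZMod 2) 1 1 (inv5 *ᵥ w) = halfWeight w := by
  decide +kernel

/-- Coordinates on five points: strip the constant part, then project. -/
def cmat5 : Matrix ((Fin 1 ⊕ Fin 1) ⊕ Fin 2) (Fin 5) (ZMod 2) :=
  inv5 * ((1 : Matrix (Fin 5) (Fin 5) (ZMod 2)) + Matrix.of fun _ _ => (1 : ZMod 2))

theorem cmat5_one : cmat5 *ᵥ (fun _ => (1 : ZMod 2)) = 0 := by decide +kernel

theorem cmat5_even : ∀ w : Fin 5 → ZMod 2, ∑ j, w j = 0 → cmat5 *ᵥ w = inv5 *ᵥ w := by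
  decide +kernel

/-- The five point model. -/
def model5 : Model ((Fin 1 ⊕ Fin 1) ⊕ Fin 2) 5 where
  emb := Matrix.mulVecLin mat5
  proj := Matrix.mulVecLin cmat5
  proj_emb := fun x => (cmat5_even _ (even5 x)).trans (proj5_emb x)
  even_emb := even5
  rest := fun w hw j k => by
    simp only [Matrix.mulVecLin_apply, cmat5_even w hw, rest5 w hw, sub_self, Pi.zero_apply]
  proj_one := cmat5_one

/-- The basis for eight points, as a table. -/
def tab8 : Fin 8 → Fin 6 → ZMod 2 := ![![0, 0, 0, 0, 0, 0],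
  ![0, 0, 1, 0, 0, 1],
  ![0, 1, 0, 0, 1, 1],
  ![0, 1, 1, 1, 1, 0],
  ![1, 1, 1, 0, 1, 0],
  ![1, 0, 1, 1, 0, 0],
  ![1, 0, 0, 1, 1, 1],
  ![1, 1, 0, 1, 0, 1]]

/-- Eight points. -/
def mat8 : Matrix (Fin 8) (Fin 3 ⊕ Fin 3) (ZMod 2) :=
  Matrix.of fun j s => tab8 j (finSumFinEquiv s)

/-- Eight points, projection. -/
def inv8 : Matrix (Fin 3 ⊕ Fin 3) (Fin 8) (ZMod 2) :=
  Matrix.of fun s j => mat8 j (Sum.swap s)

theorem proj8_emb : ∀ x : Fin 3 ⊕ Fin 3 → ZMod 2, inv8 *ᵥ (mat8 *ᵥ x) = x := by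
  decide +kernel

theorem even8 : ∀ x : Fin 3 ⊕ Fin 3 → ZMod 2, ∑ j, (mat8 *ᵥ x) j = 0 := by
  decide +kernel

theorem rest8 : ∀ w : Fin 8 → ZMod 2, ∑ j, w j = 0 →
    mat8 *ᵥ (inv8 *ᵥ w) = w ∨ mat8 *ᵥ (inv8 *ᵥ w) = w + fun _ => 1 := by
  decide +kernel

theorem quad8 : ∀ w : Fin 8 → ZMod 2, ∑ j, w j = 0 →
    Cfsg.quadFormPlus 3 (ZMod 2) (inv8 *ᵥ w) = halfWeight w := by
  decide +kernel

/-- The eight point model. -/
def model8 : Model (Fin 3 ⊕ Fin 3) 8 where
  emb := Matrix.mulVecLin mat8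
  proj := Matrix.mulVecLin inv8
  proj_emb := proj8_emb
  even_emb := even8
  rest := fun w hw j k => by
    simp only [Matrix.mulVecLin_apply]
    rcases rest8 w hw with h | h <;> rw [h] <;> simp
  proj_one := by
    change inv8 *ᵥ (fun _ => (1 : ZMod 2)) = 0
    decide +kernel

end Quad

end CfsgLib.Symplectic.Heart
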