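import Mathlib
import Cfsg.Prelude.Def_Classical

/-!
Transporting isometry groups and symplectic groups along a field isomorphism.
-/

set_option autoImplicit false
open Matrix

namespace CfsgLib.Symplectic.Heart

variable {F K : Type*} [Field F] [Field K]

/-- The general linear group along a ring isomorphism. -/
noncomputable def glEquiv {ι : Type} [Fintype ι] [DecidableEq ι] (e : F ≃+* K) :
    GL ι F ≃* GL ι K :=
  Units.mapEquiv (RingEquiv.mapMatrix e).toMulEquiv

theorem isometry_equiv {ι : Type} [Fintype ι] [DecidableEq ι] (e : F ≃+* K)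
    (P : (ι → F) → F) (Q : (ι → K) → K) (h : ∀ v, Q (fun i => e (v i)) = e (P v)) :
    Nonempty (Cfsg.isometryGroup F P ≃* Cfsg.isometryGroup K Q) := by
  have hiff : ∀ g : GL ι F, glEquiv e g ∈ Cfsg.isometryGroup K Q ↔ g ∈ Cfsg.isometryGroup F P := by
    intro g
    have key : ∀ v : ι → F, (glEquiv e g).1 *ᵥ (fun i => e (v i)) = fun i => e ((g.1 *ᵥ v) i) :=
      fun v => funext fun i => (RingHom.map_mulVec e.toRingHom g.1 v i).symm
    constructor
    · intro hg u v
      have h2 : Q ((glEquiv e g).1 *ᵥ fun i => e (u i)) = Q (fun i => e (u i)) :=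
        hg (fun i => e (u i)) (fun i => e (u i))
      rw [key, h, h] at h2
      exact e.injective h2
    · intro hg u v
      obtain ⟨u', rfl⟩ : ∃ u' : ι → F, u = fun i => e (u' i) :=
        ⟨fun i => e.symm (u i), funext fun i => (e.apply_symm_apply _).symm⟩
      change Q ((glEquiv e g).1 *ᵥ _) = Q _
      rw [key, h, h]
      exact congrArg e (hg u' u')
  exact ⟨MulEquiv.ofBijective
    ({ toFun := fun g => ⟨glEquiv e g.1, (hiff g.1).2 g.2⟩
       map_one' := Subtype.ext (map_one (glEquiv e))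
       map_mul' := fun g g' => Subtype.ext (map_mul (glEquiv e) g.1 g'.1) } :
      Cfsg.isometryGroup F P →* Cfsg.isometryGroup K Q)
    ⟨fun g g' hgg => Subtype.ext ((glEquiv e).injective (congrArg Subtype.val hgg)),
     fun k => ⟨⟨(glEquiv e).symm k.1, (hiff _).1 (by rw [MulEquiv.apply_symm_apply]; exact k.2)⟩,
       Subtype.ext ((glEquiv e).apply_symm_apply k.1)⟩⟩⟩

theorem mapMatrix_mem {L M : Type*} [Field L] [Field M] (f : L ≃+* M) (m : ℕ)
    {A : Matrix (Fin m ⊕ Fin m) (Fin m ⊕ Fin m) L}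
    (hA : A ∈ Matrix.symplecticGroup (Fin m) L) :
    f.mapMatrix A ∈ Matrix.symplecticGroup (Fin m) M := by
  rw [SymplecticGroup.mem_iff] at hA ⊢
  have hJ : f.mapMatrix (J (Fin m) L) = J (Fin m) M := by
    ext i j
    rcases i with i | i <;> rcases j with j | j <;> by_cases hij : i = j <;>
      simp [J, Matrix.one_apply, hij]
  have ht : (f.mapMatrix A)ᵀ = f.mapMatrix Aᵀ := by ext i j; rfl
  rw [ht, ← hJ, ← map_mul, ← map_mul, hA]

theorem symplectic_equiv (e : F ≃+* K) (m : ℕ) :
    Nonempty (Matrix.symplecticGroup (Fin m) F ≃* Matrix.symplecticGroup (Fin m) K) := by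
  refine ⟨MulEquiv.ofBijective
    ({ toFun := fun A => ⟨e.mapMatrix A.1, mapMatrix_mem e m A.2⟩
       map_one' := Subtype.ext (map_one e.mapMatrix)
       map_mul' := fun A B => Subtype.ext (map_mul e.mapMatrix A.1 B.1) } :
      Matrix.symplecticGroup (Fin m) F →* Matrix.symplecticGroup (Fin m) K)
    ⟨fun A B h => Subtype.ext (e.mapMatrix.injective (congrArg (fun C => C.1) h)),
     fun B => ⟨⟨e.symm.mapMatrix B.1, mapMatrix_mem e.symm m B.2⟩,
       Subtype.ext (by ext i j; simp)⟩⟩⟩

theorem exists_zmod_two [Fintype F] (hF : Fintype.card F = 2) : Nonempty (F ≃+* ZMod 2) :=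
  ⟨FiniteField.ringEquivOfCardEq (by rw [hF, ZMod.card])⟩

end CfsgLib.Symplectic.Heart
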